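import Cfsg.Agent.Lib.Golay.Misc
import Cfsg.Agent.Lib.Golay.SimpleD
import Cfsg.Agent.Lib.Golay.Sets
import Cfsg.Agent.Lib.Golay.Oct2
import Cfsg.Prelude.Def_SporadicCombinatorics

/-!
Hexads and quartets of a dodecad.
-/

set_option autoImplicit false

namespace Cfsg.Agent.Lib.Quart

open Cfsg Finset
open scoped Pointwise
open Cfsg.Agent.Lib.Golay

variable {d d' : Finset GolayPt}

theorem emb_of_list {l : List GolayPt} (hl : l.Nodup) (h5 : l.length = 5) (hm : ∀ x ∈ l, x ∈ d) :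
    ∃ x : Fin 5 ↪ d, ∀ i : Fin 5, ((x i : d) : GolayPt) = l[(i : ℕ)]'(by omega) :=
  ⟨⟨fun i => ⟨l[(i : ℕ)]'(by omega), hm _ (List.getElem_mem _)⟩, by
    intro i j hij
    have h1 : l[(i : ℕ)]'(by omega) = l[(j : ℕ)]'(by omega) := congrArg Subtype.val hij
    exact Fin.ext ((List.Nodup.getElem_inj_iff hl).1 h1)⟩, fun _ => rfl⟩

theorem five_map1 (hd : d ∈ dodecads) {l l' : List GolayPt} (hl : l.Nodup) (hl' : l'.Nodup)
    (h5 : l.length = 5) (h5' : l'.length = 5) (hm : ∀ x ∈ l, x ∈ d) (hm' : ∀ x ∈ l', x ∈ d) :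
    ∃ g ∈ M24, g • d = d ∧ l.map g = l' := by
  obtain ⟨x, hx⟩ := emb_of_list hl h5 hm
  obtain ⟨y, hy⟩ := emb_of_list hl' h5' hm'
  obtain ⟨g, hg, _⟩ := dodecad_sharp hd x y
  refine ⟨g, g.2.1, g.2.2, ?_⟩
  apply List.ext_getElem
  · rw [List.length_map, h5, h5']
  · intro i h1 h2
    rw [List.getElem_map]
    have := hg ⟨i, by omega⟩
    rw [hx, hy] at this
    exact this

theorem five_map (hd : d ∈ dodecads) (hd' : d' ∈ dodecads) {l l' : List GolayPt} (hl : l.Nodup) (hl' : l'.Nodup)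
    (h5 : l.length = 5) (h5' : l'.length = 5) (hm : ∀ x ∈ l, x ∈ d) (hm' : ∀ x ∈ l', x ∈ d') :
    ∃ g ∈ M24, g • d = d' ∧ l.map g = l' := by
  obtain ⟨k, hk, hkd⟩ := dodecads_transitive hd hd'
  obtain ⟨g, hg, hgd, hgl⟩ := five_map1 hd' (l := l.map k) (l' := l') (hl.map k.injective) hl' (by simpa using h5) h5' (by
    intro x hx
    obtain ⟨y, hy, rfl⟩ := List.mem_map.1 hx
    rw [← hkd, smul_mem_smul_iff']; exact hm y hy) hm'
  refine ⟨g * k, M24.mul_mem hg hk, by rw [mul_smul, hkd, hgd], ?_⟩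
  rw [← hgl, List.map_map]
  rfl

/-- sharpness -/
theorem eq_one_of_five (hd : d ∈ dodecads) {g : Equiv.Perm GolayPt} (hg : g ∈ M24) (hgd : g • d = d) {l : List GolayPt}
    (hl : l.Nodup) (h5 : l.length = 5) (hm : ∀ x ∈ l, x ∈ d) (hf : ∀ x ∈ l, g x = x) : g = 1 := by
  obtain ⟨x, hx⟩ := emb_of_list hl h5 hm
  obtain ⟨k, hk, hu⟩ := dodecad_sharp hd x x
  have e1 := hu ⟨g, hg, hgd⟩ (fun i => by
    show g (x i) = x i
    rw [hx]; exact hf _ (List.getElem_mem _))
  have e2 := hu 1 (fun i => rfl)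
  have := e1.trans e2.symm
  exact congrArg Subtype.val this

theorem hexad_eq (hd : d ∈ dodecads) {h h' : Finset GolayPt} (hh : h ∈ hexadsOn d) (hh' : h' ∈ hexadsOn d)
    (h5 : 5 ≤ (h ∩ h').card) : h = h' := by
  obtain ⟨_, o, ho, rfl⟩ := hh
  obtain ⟨_, o', ho', rfl⟩ := hh'
  obtain ⟨s, hs1, hs2⟩ := Finset.exists_subset_card_eq h5
  obtain ⟨w, _, hu⟩ := steiner.2 s hs2
  have hso : s ⊆ o := hs1.trans (Finset.inter_subset_left.trans Finset.inter_subset_left)
  have hso' : s ⊆ o' := hs1.trans (Finset.inter_subset_right.trans Finset.inter_subset_left)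
  rw [hu o ⟨ho, hso⟩, hu o' ⟨ho', hso'⟩]

theorem smul_hexad {g : Equiv.Perm GolayPt} (hg : g ∈ M24) {h : Finset GolayPt} (hh : h ∈ hexadsOn d) :
    g • h ∈ hexadsOn (g • d) := by
  obtain ⟨h6, o, ho, rfl⟩ := hh
  refine ⟨by rw [Finset.card_smul_finset]; exact h6, g • o, smul_mem_octads hg ho, ?_⟩
  rw [Finset.smul_finset_inter]

theorem smul_toFinset (g : Equiv.Perm GolayPt) (l : List GolayPt) : g • l.toFinset = (l.map g).toFinset := by
  ext x
  rw [Finset.mem_smul_finset, List.mem_toFinset, List.mem_map]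
  simp only [List.mem_toFinset]
  rfl

theorem six_map (hd : d ∈ dodecads) (hd' : d' ∈ dodecads) {l l' : List GolayPt} (hl : l.Nodup) (hl' : l'.Nodup)
    (h6 : l.length = 6) (h6' : l'.length = 6) (hh : l.toFinset ∈ hexadsOn d) (hh' : l'.toFinset ∈ hexadsOn d') :
    ∃ g ∈ M24, g • d = d' ∧ l.map g = l' := by
  have hsub : ∀ {h d : Finset GolayPt}, h ∈ hexadsOn d → h ⊆ d := by
    rintro h d ⟨_, o, _, rfl⟩; exact Finset.inter_subset_right
  have hm : ∀ x ∈ l, x ∈ d := fun x hx => hsub hh (List.mem_toFinset.2 hx)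
  have hm' : ∀ x ∈ l', x ∈ d' := fun x hx => hsub hh' (List.mem_toFinset.2 hx)
  obtain ⟨g, hg, hgd, hgl⟩ := five_map hd hd' (l := l.take 5) (l' := l'.take 5) (hl.sublist (List.take_sublist 5 l))
    (hl'.sublist (List.take_sublist 5 l')) (by rw [List.length_take]; omega) (by rw [List.length_take]; omega)
    (fun x hx => hm x (List.mem_of_mem_take hx)) (fun x hx => hm' x (List.mem_of_mem_take hx))
  have e1 : g • l.toFinset = l'.toFinset := by
    apply hexad_eq hd' _ hh'
    · have : (l'.take 5).toFinset ⊆ g • l.toFinset ∩ l'.toFinset := by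
        intro x hx
        rw [List.mem_toFinset] at hx
        rw [mem_inter]
        refine ⟨?_, List.mem_toFinset.2 (List.mem_of_mem_take hx)⟩
        rw [← hgl, List.mem_map] at hx
        obtain ⟨y, hy, rfl⟩ := hx
        rw [smul_mem_smul_iff', List.mem_toFinset]
        exact List.mem_of_mem_take hy
      have h := Finset.card_le_card this
      rw [List.toFinset_card_of_nodup (hl'.sublist (List.take_sublist 5 l')), List.length_take] at h
      omega
    · rw [← hgd]; exact smul_hexad hg hh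
  refine ⟨g, hg, hgd, ?_⟩
  have hlast : g (l[5]'(by omega)) = l'[5]'(by omega) := by
    have h1 : g (l[5]'(by omega)) ∈ l'.toFinset := by
      rw [← e1, smul_mem_smul_iff', List.mem_toFinset]; exact List.getElem_mem _
    rw [List.mem_toFinset] at h1
    obtain ⟨i, hi, he⟩ := List.getElem_of_mem h1
    by_cases h5 : i = 5
    · subst h5; exact he.symm
    · exfalso
      have h2 : (l'.take 5)[i]'(by rw [List.length_take]; omega) = g (l[i]'(by omega)) := by
        simp only [← hgl, List.getElem_map, List.getElem_take]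
      rw [List.getElem_take, he] at h2
      have := (List.Nodup.getElem_inj_iff hl).1 (g.injective h2)
      omega
  apply List.ext_getElem
  · rw [List.length_map, h6, h6']
  · intro i h1 h2
    rw [List.getElem_map]
    by_cases h5 : i = 5
    · subst h5; exact hlast
    · have h2 : (l'.take 5)[i]'(by rw [List.length_take]; omega) = g (l[i]'(by omega)) := by
        simp only [← hgl, List.getElem_map, List.getElem_take]
      rw [List.getElem_take] at h2
      exact h2.symm

theorem hexad_sub {h : Finset GolayPt} (hh : h ∈ hexadsOn d) : h ⊆ d := by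
  obtain ⟨_, o, _, rfl⟩ := hh; exact Finset.inter_subset_right

/-- lists for a pair of triples -/
theorem exists_triple {t : Finset GolayPt} (ht : t.card = 3) : ∃ a b c, [a, b, c].Nodup ∧ [a, b, c].toFinset = t := by
  obtain ⟨a, b, c, h1, h2, h3, rfl⟩ := Finset.card_eq_three.1 ht
  exact ⟨a, b, c, by simp [h1, h2, h3], by ext x; simp⟩

theorem exists_triple_of {t : Finset GolayPt} (ht : t.card = 3) {p : GolayPt} (hp : p ∈ t) :
    ∃ b c, [p, b, c].Nodup ∧ [p, b, c].toFinset = t := by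
  have h2 : (t.erase p).card = 2 := by rw [Finset.card_erase_of_mem hp, ht]
  obtain ⟨b, c, hbc, he⟩ := Finset.card_eq_two.1 h2
  have hb : b ∈ t.erase p := by rw [he]; simp
  have hc : c ∈ t.erase p := by rw [he]; simp
  refine ⟨b, c, ?_, ?_⟩
  · simp only [List.nodup_cons, List.mem_cons, List.not_mem_nil, or_false, not_or, not_false_eq_true, List.nodup_nil, and_true]
    exact ⟨⟨(Finset.ne_of_mem_erase hb).symm, (Finset.ne_of_mem_erase hc).symm⟩, hbc⟩
  · rw [← Finset.insert_erase hp, he]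
    ext x; simp

theorem nodup_append_triples {l m : List GolayPt} (hl : l.Nodup) (hm : m.Nodup) (h : Disjoint l.toFinset m.toFinset) :
    (l ++ m).Nodup := by
  rw [List.nodup_append]
  refine ⟨hl, hm, ?_⟩
  intro a ha b hb hab
  subst hab
  exact (Finset.disjoint_left.1 h) (List.mem_toFinset.2 ha) (List.mem_toFinset.2 hb)

/-- all pairs of triples are conjugate, with prescribed points -/
theorem pair_map (hd : d ∈ dodecads) (hd' : d' ∈ dodecads) {l m l' m' : List GolayPt} (hl : l.Nodup) (hm : m.Nodup)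
    (hl' : l'.Nodup) (hm' : m'.Nodup) (l3 : l.length = 3) (m3 : m.length = 3) (l3' : l'.length = 3) (m3' : m'.length = 3)
    (hdis : Disjoint l.toFinset m.toFinset) (hdis' : Disjoint l'.toFinset m'.toFinset)
    (hh : l.toFinset ∪ m.toFinset ∈ hexadsOn d) (hh' : l'.toFinset ∪ m'.toFinset ∈ hexadsOn d') :
    ∃ g ∈ M24, g • d = d' ∧ l.map g = l' ∧ m.map g = m' := by
  obtain ⟨g, hg, hgd, he⟩ := six_map hd hd' (nodup_append_triples hl hm hdis) (nodup_append_triples hl' hm' hdis')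
    (by rw [List.length_append]; omega) (by rw [List.length_append]; omega)
    (by rw [List.toFinset_append]; exact hh) (by rw [List.toFinset_append]; exact hh')
  refine ⟨g, hg, hgd, ?_⟩
  rw [List.map_append] at he
  exact List.append_inj he (by rw [List.length_map]; omega)

theorem smul_quartet {g : Equiv.Perm GolayPt} (hg : g ∈ M24) {Q : Finset (Finset GolayPt)} (hQ : Q ∈ quartets d) :
    g • Q ∈ quartets (g • d) := by
  obtain ⟨h4, h3, hh⟩ := hQ
  refine ⟨by rw [Finset.card_smul_finset]; exact h4, ?_, ?_⟩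
  · intro t ht
    obtain ⟨s, hs, rfl⟩ := Finset.mem_smul_finset.1 ht
    exact ⟨by rw [Finset.card_smul_finset]; exact (h3 s hs).1, Finset.smul_finset_subset_smul_finset (h3 s hs).2⟩
  · intro t ht u hu htu
    obtain ⟨s, hs, rfl⟩ := Finset.mem_smul_finset.1 ht
    obtain ⟨v, hv, rfl⟩ := Finset.mem_smul_finset.1 hu
    rw [← Finset.smul_finset_union]
    exact smul_hexad hg (hh s hs v hv (fun e => htu (by rw [e])))

theorem quartet_disj {Q : Finset (Finset GolayPt)} (hQ : Q ∈ quartets d) {t u : Finset GolayPt} (ht : t ∈ Q) (hu : u ∈ Q)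
    (htu : t ≠ u) : Disjoint t u := by
  obtain ⟨h4, h3, hh⟩ := hQ
  have h1 := (hh t ht u hu htu).1
  have h2 := Finset.card_union_add_card_inter t u
  rw [(h3 t ht).1, (h3 u hu).1, h1] at h2
  rw [Finset.disjoint_iff_inter_eq_empty, ← Finset.card_eq_zero]; omega

/-- candidate third triples -/
def cand (T : ℕ) : List ℕ :=
  ((List.range 4096).filter (fun c => pc (comb c) == 8 && (pc (comb c &&& dodU) == 6 && (comb c &&& dodU) &&& T == T))).map
    (fun c => (comb c &&& dodU) ^^^ T)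

theorem mem_cand {T : ℕ} (hT : T < 2 ^ 24) {v : Finset GolayPt} (hdis : Disjoint (st T) v)
    (hh : st T ∪ v ∈ hexadsOn (st dodU)) : ∃ m ∈ cand T, v = st m := by
  obtain ⟨h6, o, ho, he⟩ := hh
  obtain ⟨hw, h8⟩ := mem_octads.1 ho
  obtain ⟨c, hc, rfl⟩ := exists_comb hw
  have e1 : st (comb c &&& dodU) = st T ∪ v := by rw [st_and]; exact he
  have e2 : (comb c &&& dodU) &&& T = T := by
    apply st_inj (lt_of_le_of_lt Nat.and_le_right hT) hT
    rw [st_and, e1]
    exact Finset.inter_eq_right.2 Finset.subset_union_left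
  refine ⟨(comb c &&& dodU) ^^^ T, ?_, ?_⟩
  · unfold cand
    rw [List.mem_map]
    refine ⟨c, ?_, rfl⟩
    rw [List.mem_filter, List.mem_range]
    refine ⟨hc, ?_⟩
    rw [Bool.and_eq_true, Bool.and_eq_true, beq_iff_eq, beq_iff_eq, beq_iff_eq]
    refine ⟨by rw [← card_st]; exact h8, by rw [← card_st, e1]; exact h6, e2⟩
  · rw [st_xor, e1]
    ext x
    rw [Finset.mem_symmDiff, mem_union]
    constructor
    · intro hx
      exact Or.inl ⟨Or.inr hx, fun h => (Finset.disjoint_left.1 hdis) h hx⟩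
    · rintro (⟨h1 | h1, h2⟩ | ⟨h1, h2⟩)
      · exact absurd h1 h2
      · exact h1
      · exact absurd (Or.inl h1) h2

theorem cand_data : ((cand 7).all (fun m => !((cand 0x150).contains m) || (m == 0x11200 || m == 0x42008))) = true := by
  decide +kernel

theorem cand_lt {T m : ℕ} (hT : T < 2 ^ 24) (h : m ∈ cand T) : m < 2 ^ 24 := by
  unfold cand at h
  rw [List.mem_map] at h
  obtain ⟨c, _, rfl⟩ := h
  exact Nat.xor_lt_two_pow (lt_of_le_of_lt Nat.and_le_right (by decide)) hT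

/-- the standard quartet -/
def stdQ : Finset (Finset GolayPt) := {st 7, st 0x150, st 0x11200, st 0x42008}

theorem hexad_of {m c : ℕ} (hc : pc (comb c) = 8) (h6 : pc m = 6) (he : comb c &&& dodU = m) : st m ∈ hexadsOn (st dodU) := by
  refine ⟨by rw [card_st]; exact h6, st (comb c), mem_octads.2 ⟨isWord_comb c, by rw [card_st]; exact hc⟩, ?_⟩
  rw [← st_and, he]

def isHex (m : ℕ) : Bool := pc m == 6 && (List.range 4096).any (fun c => pc (comb c) == 8 && comb c &&& dodU == m)

theorem isHex_spec {m : ℕ} (h : isHex m = true) : st m ∈ hexadsOn (st dodU) := by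
  unfold isHex at h
  rw [Bool.and_eq_true, List.any_eq_true] at h
  obtain ⟨h6, c, _, hc⟩ := h
  rw [Bool.and_eq_true, beq_iff_eq, beq_iff_eq] at hc
  exact hexad_of hc.1 (by simpa using h6) hc.2

theorem stdQ_data : ([7, 0x150, 0x11200, 0x42008].all (fun a => pc a == 3 && (a &&& dodU == a && 
    [7, 0x150, 0x11200, 0x42008].all (fun b => a == b || isHex (a ||| b))))) = true := by decide +kernel

theorem mem_stdQ {t : Finset GolayPt} : t ∈ stdQ ↔ ∃ a ∈ [7, 0x150, 0x11200, 0x42008], t = st a := by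
  unfold stdQ
  simp

theorem stdQ_mem : stdQ ∈ quartets (st dodU) := by
  have hd := stdQ_data
  rw [List.all_eq_true] at hd
  refine ⟨?_, ?_, ?_⟩
  · have e : stdQ = ([7, 0x150, 0x11200, 0x42008].map st).toFinset := by
      unfold stdQ
      ext x; simp
    rw [e, List.toFinset_card_of_nodup]
    · rfl
    · apply List.Nodup.map_on
      · intro a ha b hb hab
        have hlt : ∀ c ∈ [7, 0x150, 0x11200, 0x42008], c < 2 ^ 24 := by decide
        exact st_inj (hlt a ha) (hlt b hb) hab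
      · decide
  · intro t ht
    obtain ⟨a, ha, rfl⟩ := mem_stdQ.1 ht
    have := hd a ha
    rw [Bool.and_eq_true, Bool.and_eq_true, beq_iff_eq, beq_iff_eq] at this
    refine ⟨by rw [card_st]; exact this.1, ?_⟩
    have e := this.2.1
    rw [← e, st_and]; exact Finset.inter_subset_right
  · intro t ht u hu htu
    obtain ⟨a, ha, rfl⟩ := mem_stdQ.1 ht
    obtain ⟨b, hb, rfl⟩ := mem_stdQ.1 hu
    have := hd a ha
    rw [Bool.and_eq_true, Bool.and_eq_true, List.all_eq_true] at this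
    have h2 := this.2.2 b hb
    rw [Bool.or_eq_true, beq_iff_eq] at h2
    rcases h2 with h2 | h2
    · exact absurd (by rw [h2]) htu
    · rw [← st_or]; exact isHex_spec h2

theorem stdQ_unique {Q : Finset (Finset GolayPt)} (hQ : Q ∈ quartets (st dodU)) (h1 : st 7 ∈ Q) (h2 : st 0x150 ∈ Q) :
    Q = stdQ := by
  have hne : st 7 ≠ st 0x150 := fun e => by
    have := st_inj (by norm_num) (by norm_num) e
    omega
  have key : ∀ v ∈ Q, v ∈ stdQ := by
    intro v hv
    by_cases hv1 : v = st 7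
    · rw [hv1]; simp [stdQ]
    by_cases hv2 : v = st 0x150
    · rw [hv2]; simp [stdQ]
    obtain ⟨m, hm, e1⟩ := mem_cand (T := 7) (by norm_num) (quartet_disj hQ h1 hv (Ne.symm hv1))
      (hQ.2.2 _ h1 v hv (Ne.symm hv1))
    obtain ⟨m', hm', e2⟩ := mem_cand (T := 0x150) (by norm_num) (quartet_disj hQ h2 hv (Ne.symm hv2))
      (hQ.2.2 _ h2 v hv (Ne.symm hv2))
    have e3 : m = m' := st_inj (cand_lt (by norm_num) hm) (cand_lt (by norm_num) hm') (e1.symm.trans e2)
    have h := cand_data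
    rw [List.all_eq_true] at h
    have h := h m hm
    simp only [Bool.or_eq_true, Bool.not_eq_true', beq_iff_eq] at h
    rcases h with h | h | h
    · rw [← e3] at hm'
      rw [List.contains_iff_mem.2 hm'] at h
      exact absurd h (by simp)
    · rw [e1, h]; simp [stdQ]
    · rw [e1, h]; simp [stdQ]
  exact Finset.eq_of_subset_of_card_le key (by rw [hQ.1, stdQ_mem.1])

theorem std_lists : ([pt 0, pt 1, pt 2].Nodup ∧ [pt 0, pt 1, pt 2].toFinset = st 7) ∧
    ([pt 4, pt 6, pt 8].Nodup ∧ [pt 4, pt 6, pt 8].toFinset = st 0x150) ∧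
    Disjoint (st 7) (st 0x150) ∧ st 7 ∪ st 0x150 ∈ hexadsOn (st dodU) := by
  refine ⟨?_, ?_, ?_, ?_⟩
  · decide +kernel
  · decide +kernel
  · rw [Finset.disjoint_iff_inter_eq_empty, ← st_and]; decide +kernel
  · rw [← st_or]; exact isHex_spec (by decide +kernel)

/-- two triples determine a quartet -/
theorem exists_unique (hd : d ∈ dodecads) {t u : Finset GolayPt} (ht : t.card = 3) (hu : u.card = 3)
    (htu : Disjoint t u) (hh : t ∪ u ∈ hexadsOn d) :
    ∃! Q : Finset (Finset GolayPt), Q ∈ quartets d ∧ t ∈ Q ∧ u ∈ Q := by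
  obtain ⟨a, b, c, n1, rfl⟩ := exists_triple ht
  obtain ⟨a', b', c', n2, rfl⟩ := exists_triple hu
  obtain ⟨⟨s1, s2⟩, ⟨s3, s4⟩, s5, s6⟩ := std_lists
  obtain ⟨g, hg, hgd, e1, e2⟩ := pair_map dodU_mem hd s1 s3 n1 n2 rfl rfl rfl rfl (by rw [s2, s4]; exact s5) htu
    (by rw [s2, s4]; exact s6) hh
  have g1 : g • st 7 = [a, b, c].toFinset := by rw [← s2, smul_toFinset, e1]
  have g2 : g • st 0x150 = [a', b', c'].toFinset := by rw [← s4, smul_toFinset, e2]
  refine ⟨g • stdQ, ⟨by rw [← hgd]; exact smul_quartet hg stdQ_mem, ?_, ?_⟩, ?_⟩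
  · rw [← g1]; exact Finset.smul_mem_smul_finset (by simp [stdQ])
  · rw [← g2]; exact Finset.smul_mem_smul_finset (by simp [stdQ])
  · rintro Q ⟨hQ, q1, q2⟩
    have h1 : g⁻¹ • Q ∈ quartets (st dodU) := by
      have : g⁻¹ • d = st dodU := by rw [← hgd, inv_smul_smul]
      rw [← this]; exact smul_quartet (M24.inv_mem hg) hQ
    have h2 := stdQ_unique h1 (by rw [Finset.mem_inv_smul_finset_iff, g1]; exact q1)
      (by rw [Finset.mem_inv_smul_finset_iff, g2]; exact q2)
    rw [← h2, smul_inv_smul]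

/-- transitivity on quartets with two chosen triples and points -/
theorem quartet_map (hd : d ∈ dodecads) (hd' : d' ∈ dodecads) {Q Q' : Finset (Finset GolayPt)} (hQ : Q ∈ quartets d)
    (hQ' : Q' ∈ quartets d') {l m l' m' : List GolayPt} (hl : l.Nodup) (hm : m.Nodup)
    (hl' : l'.Nodup) (hm' : m'.Nodup) (l1 : l.toFinset ∈ Q) (m1 : m.toFinset ∈ Q) (hlm : l.toFinset ≠ m.toFinset)
    (l1' : l'.toFinset ∈ Q') (m1' : m'.toFinset ∈ Q') (hlm' : l'.toFinset ≠ m'.toFinset) :
    ∃ g ∈ M24, g • d = d' ∧ l.map g = l' ∧ m.map g = m' ∧ g • Q = Q' := by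
  have len : ∀ {Q : Finset (Finset GolayPt)} {d : Finset GolayPt} {l : List GolayPt}, Q ∈ quartets d → l.Nodup → l.toFinset ∈ Q →
      l.length = 3 := by
    intro Q d l hQ hl h
    rw [← List.toFinset_card_of_nodup hl]; exact (hQ.2.1 _ h).1
  obtain ⟨g, hg, hgd, e1, e2⟩ := pair_map hd hd' hl hm hl' hm' (len hQ hl l1) (len hQ hm m1) (len hQ' hl' l1') (len hQ' hm' m1')
    (quartet_disj hQ l1 m1 hlm) (quartet_disj hQ' l1' m1' hlm') (hQ.2.2 _ l1 _ m1 hlm) (hQ'.2.2 _ l1' _ m1' hlm')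
  refine ⟨g, hg, hgd, e1, e2, ?_⟩
  obtain ⟨R, _, hu⟩ := exists_unique hd' (hQ'.2.1 _ l1').1 (hQ'.2.1 _ m1').1 (quartet_disj hQ' l1' m1' hlm') (hQ'.2.2 _ l1' _ m1' hlm')
  rw [hu Q' ⟨hQ', l1', m1'⟩]
  apply hu
  refine ⟨by rw [← hgd]; exact smul_quartet hg hQ, ?_, ?_⟩
  · rw [← e1, ← smul_toFinset]; exact Finset.smul_mem_smul_finset l1
  · rw [← e2, ← smul_toFinset]; exact Finset.smul_mem_smul_finset m1

end Cfsg.Agent.Lib.Quart
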