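import Cfsg.Agent.Lib.Quart.Basic
import Cfsg.Agent.Lib.Quart.Data
import Cfsg.Agent.Lib.Golay.Fam2

/-!
The quartets of a dodecad: number and orbits.
-/

set_option autoImplicit false

namespace Cfsg.Agent.Lib.Quart

open Cfsg Finset
open scoped Pointwise
open Cfsg.Agent.Lib.Golay

variable {d d' : Finset GolayPt}

theorem hexM_ok : ((hexC.zip hexM).all (fun p => pc (comb p.1) == 8 && (comb p.1 &&& dodU == p.2 && pc p.2 == 6)) &&
    (hexC.length == hexM.length)) = true := by decide +kernel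

theorem hexM_all : allB (fun c => !(pc (comb c) == 8) || (!(pc (comb c &&& dodU) == 6) || hexM.contains (comb c &&& dodU))) 0 12 = true := by
  decide +kernel

theorem hexM_sound {m : ℕ} (h : m ∈ hexM) : st m ∈ hexadsOn (st dodU) := by
  have h1 := hexM_ok
  rw [Bool.and_eq_true, List.all_eq_true, beq_iff_eq] at h1
  obtain ⟨i, hi, rfl⟩ := List.getElem_of_mem h
  have h2 : i < (hexC.zip hexM).length := by rw [List.length_zip, h1.2]; simpa using hi
  have h3 := h1.1 _ (List.getElem_mem h2)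
  rw [List.getElem_zip, Bool.and_eq_true, Bool.and_eq_true, beq_iff_eq, beq_iff_eq, beq_iff_eq] at h3
  exact hexad_of h3.1 h3.2.2 h3.2.1

theorem hexM_complete {h : Finset GolayPt} (hh : h ∈ hexadsOn (st dodU)) : ∃ m ∈ hexM, h = st m := by
  obtain ⟨h6, o, ho, he⟩ := hh
  obtain ⟨hw, h8⟩ := mem_octads.1 ho
  obtain ⟨c, hc, rfl⟩ := exists_comb hw
  have h1 := of_allB hexM_all (i := c) (Nat.zero_le _) (by omega)
  have e1 : st (comb c &&& dodU) = h := by rw [st_and]; exact he
  rw [card_st] at h8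
  have h6' : pc (comb c &&& dodU) = 6 := by rw [← card_st, e1]; exact h6
  rw [h8, h6'] at h1
  simp only [BEq.rfl, Bool.not_true, Bool.false_or] at h1
  exact ⟨_, List.contains_iff_mem.1 h1, e1.symm⟩

/-- the four triples of a code -/
def comps (a : ℕ) : List ℕ := [a / 0x1000000000000000000, a / 0x1000000000000 % 0x1000000, a / 0x1000000 % 0x1000000, a % 0x1000000]

def decQ (a : ℕ) : Finset (Finset GolayPt) := fs (comps a)

def okQ (a : ℕ) : Bool := (Nat.blt (a / 0x1000000000000000000) 0x1000000) &&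
  ((a / 0x1000000000000000000).testBit 0 && (Nat.blt (a / 0x1000000000000 % 0x1000000) (a / 0x1000000 % 0x1000000) &&
  (Nat.blt (a / 0x1000000 % 0x1000000) (a % 0x1000000) &&
  ((comps a).all (fun c => pc c == 3 && (c &&& dodU == c && (comps a).all (fun c' => c == c' || hexM.contains (c ||| c')))) &&
    (decide (comps a).Nodup)))))

structure OkQ (a : ℕ) : Prop where
  lt : a / 0x1000000000000000000 < 0x1000000
  b0 : (a / 0x1000000000000000000).testBit 0 = true
  s1 : a / 0x1000000000000 % 0x1000000 < a / 0x1000000 % 0x1000000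
  s2 : a / 0x1000000 % 0x1000000 < a % 0x1000000
  c3 : ∀ c ∈ comps a, pc c = 3 ∧ c &&& dodU = c ∧ ∀ c' ∈ comps a, c = c' ∨ c ||| c' ∈ hexM
  nd : (comps a).Nodup

theorem okQ_iff {a : ℕ} (h : okQ a = true) : OkQ a := by
  unfold okQ at h
  simp only [Bool.and_eq_true, List.all_eq_true, Bool.or_eq_true, beq_iff_eq, Nat.blt_eq, decide_eq_true_eq,
    List.contains_iff_mem] at h
  obtain ⟨h1, h2, h3, h4, h5, h6⟩ := h
  exact ⟨h1, h2, h3, h4, h5, h6⟩

theorem comps_lt {a : ℕ} (h : OkQ a) : ∀ c ∈ comps a, c < 2 ^ 24 := by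
  intro c hc
  unfold comps at hc
  simp only [List.mem_cons, List.not_mem_nil, or_false] at hc
  have := h.lt
  rcases hc with rfl | rfl | rfl | rfl
  · simpa using this
  · exact Nat.mod_lt _ (by norm_num)
  · exact Nat.mod_lt _ (by norm_num)
  · exact Nat.mod_lt _ (by norm_num)

theorem mem_fs {l : List ℕ} {t : Finset GolayPt} : t ∈ fs l ↔ ∃ c ∈ l, st c = t := by
  unfold fs
  rw [List.mem_toFinset, List.mem_map]

theorem card_fs {l : List ℕ} (hl : l.Nodup) (hlt : ∀ c ∈ l, c < 2 ^ 24) : (fs l).card = l.length := by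
  unfold fs
  rw [List.toFinset_card_of_nodup, List.length_map]
  exact List.Nodup.map_on (fun a ha b hb hab => st_inj (hlt a ha) (hlt b hb) hab) hl

theorem decQ_mem {a : ℕ} (h : OkQ a) : decQ a ∈ quartets (st dodU) := by
  refine ⟨?_, ?_, ?_⟩
  · exact card_fs h.nd (comps_lt h)
  · intro t ht
    obtain ⟨c, hc, rfl⟩ := mem_fs.1 ht
    obtain ⟨h1, h2, _⟩ := h.c3 c hc
    refine ⟨by rw [card_st]; exact h1, ?_⟩
    rw [← h2, st_and]; exact Finset.inter_subset_right
  · intro t ht u hu htu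
    obtain ⟨c, hc, rfl⟩ := mem_fs.1 ht
    obtain ⟨c', hc', rfl⟩ := mem_fs.1 hu
    rcases (h.c3 c hc).2.2 c' hc' with e | e
    · exact absurd (by rw [e]) htu
    · rw [← st_or]; exact hexM_sound e

theorem decQ_inj {a b : ℕ} (ha : OkQ a) (hb : OkQ b) (hab : decQ a = decQ b) : a = b := by
  have la := comps_lt ha
  have lb := comps_lt hb
  have hmem : ∀ c, c ∈ comps a → c ∈ comps b := by
    intro c hc
    have h1 : st c ∈ decQ b := by rw [← hab]; exact mem_fs.2 ⟨c, hc, rfl⟩
    obtain ⟨c', hc', e⟩ := mem_fs.1 h1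
    rw [st_inj (la c hc) (lb c' hc') e.symm]; exact hc'
  have hbit : ∀ c ∈ comps b, c.testBit 0 = true → c = b / 0x1000000000000000000 := by
    intro c hc h0
    by_contra hne
    have m1 : st c ∈ decQ b := mem_fs.2 ⟨c, hc, rfl⟩
    have m2 : st (b / 0x1000000000000000000) ∈ decQ b := mem_fs.2 ⟨_, by simp [comps], rfl⟩
    have h1 : b / 0x1000000000000000000 ∈ comps b := by simp [comps]
    have hd := quartet_disj (decQ_mem hb) m1 m2 (fun e => hne (st_inj (lb c hc) (lb _ h1) e))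
    refine (Finset.disjoint_left.1 hd) (a := pt 0) ?_ ?_
    · rw [mem_st, ix_pt (by norm_num)]; exact h0
    · rw [mem_st, ix_pt (by norm_num)]; exact hb.b0
  have e1 : a / 0x1000000000000000000 = b / 0x1000000000000000000 :=
    hbit _ (hmem _ (by simp [comps])) ha.b0
  have n1 := ha.nd
  have n2 := hb.nd
  have m1 := hmem (a / 0x1000000000000 % 0x1000000) (by simp [comps])
  have m2 := hmem (a / 0x1000000 % 0x1000000) (by simp [comps])
  have m3 := hmem (a % 0x1000000) (by simp [comps])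
  unfold comps at n1 n2 m1 m2 m3
  simp only [List.mem_cons, List.not_mem_nil, or_false, List.nodup_cons, not_or, not_false_eq_true, List.nodup_nil, and_true] at n1 n2 m1 m2 m3
  have s1 := ha.s1
  have s2 := ha.s2
  have s3 := hb.s1
  have s4 := hb.s2
  obtain ⟨⟨n11, n12, n13⟩, _⟩ := n1
  rw [← e1] at m1 m2 m3
  have e2 : a / 0x1000000000000 % 0x1000000 = b / 0x1000000000000 % 0x1000000 ∧ a / 0x1000000 % 0x1000000 = b / 0x1000000 % 0x1000000 ∧
      a % 0x1000000 = b % 0x1000000 := by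
    have p1 := m1.resolve_left (Ne.symm n11)
    have p2 := m2.resolve_left (Ne.symm n12)
    have p3 := m3.resolve_left (Ne.symm n13)
    clear m1 m2 m3 n11 n12 n13 n2 hbit hmem e1
    omega
  omega

def sameQ (g a b : ℕ) : Bool := (comps a).all (fun c => (comps b).contains (act g c))

theorem sameQ_spec {g : ℕ} (hg : pres g = true) {a b : ℕ} (ha : OkQ a) (hb : OkQ b) (h : sameQ g a b = true) :
    pm g • decQ a = decQ b := by
  unfold sameQ at h
  rw [List.all_eq_true] at h
  apply Finset.eq_of_subset_of_card_le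
  · intro t ht
    obtain ⟨s, hs, rfl⟩ := Finset.mem_smul_finset.1 ht
    obtain ⟨c, hc, rfl⟩ := mem_fs.1 hs
    rw [pm_smul_st (pres_valid hg)]
    exact mem_fs.2 ⟨_, List.contains_iff_mem.1 (h c hc), rfl⟩
  · rw [Finset.card_smul_finset, (decQ_mem ha).1, (decQ_mem hb).1]

theorem qTab_ok : allB (sortedOK 220 96 qTab okQ) 0 8 = true := by decide +kernel

/-- completeness of the table -/
def complQ : Bool := (List.range 24).all (fun i => (List.range 24).all (fun j => 
  (i == 0 || (j == 0 || (Nat.ble j i || (!(dodU.testBit i) || !(dodU.testBit j))))) ||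
    hexM.all (fun m => !(m &&& (1 ||| ((1 <<< i) ||| (1 <<< j))) == (1 ||| ((1 <<< i) ||| (1 <<< j)))) ||
      (List.range 220).any (fun e => tabAt qTab 96 e / 0x1000000000000000000 == (1 ||| ((1 <<< i) ||| (1 <<< j))) &&
        (comps (tabAt qTab 96 e)).contains (m ^^^ (1 ||| ((1 <<< i) ||| (1 <<< j)))))))) 

theorem complQ_ok : complQ = true := by decide +kernel

theorem one_mem : pt 0 ∈ st dodU := by rw [mem_st, ix_pt (by norm_num)]; decide

theorem quartet_cover (hd : d ∈ dodecads) {Q : Finset (Finset GolayPt)} (hQ : Q ∈ quartets d) {p : GolayPt} (hp : p ∈ d) :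
    ∃ t ∈ Q, p ∈ t := by
  have h1 : (Q.biUnion (fun t => t)).card = 12 := by
    rw [Finset.card_biUnion (fun t ht u hu htu => quartet_disj hQ ht hu htu)]
    rw [Finset.sum_congr rfl (fun t ht => (hQ.2.1 t ht).1), Finset.sum_const, hQ.1]; rfl
  have h2 : Q.biUnion (fun t => t) = d := by
    apply Finset.eq_of_subset_of_card_le
    · intro x hx
      obtain ⟨t, ht, hxt⟩ := Finset.mem_biUnion.1 hx
      exact (hQ.2.1 t ht).2 hxt
    · rw [h1, (mem_dodecads.1 hd).2]
  rw [← h2] at hp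
  obtain ⟨t, ht, hxt⟩ := Finset.mem_biUnion.1 hp
  exact ⟨t, ht, hxt⟩

theorem exists_other {Q : Finset (Finset GolayPt)} (hQ : Q ∈ quartets d) (t : Finset GolayPt) : ∃ u ∈ Q, t ≠ u := by
  by_contra hc
  push Not at hc
  have : Q ⊆ {t} := fun u hu => Finset.mem_singleton.2 (hc u hu).symm
  have := Finset.card_le_card this
  rw [hQ.1, Finset.card_singleton] at this
  omega

theorem tab_ok {e : ℕ} (he : e < 220) : OkQ (tabAt qTab 96 e) := okQ_iff ((sorted_spec (n := 8) (by norm_num) qTab_ok).1 e he)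

theorem qTab_surj {Q : Finset (Finset GolayPt)} (hQ : Q ∈ quartets (st dodU)) : ∃ e < 220, Q = decQ (tabAt qTab 96 e) := by
  obtain ⟨t, ht, h0⟩ := quartet_cover dodU_mem hQ one_mem
  obtain ⟨b, c, hn, hbc⟩ := exists_triple_of (hQ.2.1 t ht).1 h0
  obtain ⟨u, hu, htu⟩ := exists_other hQ t
  have hdis := quartet_disj hQ ht hu htu
  -- indices
  have key : ∀ i < 24, ∀ j < 24, i < j → i ≠ 0 → pt i ∈ st dodU → pt j ∈ st dodU → [pt 0, pt i, pt j].toFinset = t →
      ∃ e < 220, Q = decQ (tabAt qTab 96 e) := by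
    intro i hi j hj hij hi0 hid hjd hte
    have hT : t = st (1 ||| ((1 <<< i) ||| (1 <<< j))) := by
      rw [← hte]
      ext x
      rw [mem_st, Nat.testBit_or, Nat.testBit_or, Nat.one_shiftLeft, Nat.one_shiftLeft, Nat.testBit_two_pow, Nat.testBit_two_pow, List.mem_toFinset]
      have hx := ix_lt x
      have e0 : Nat.testBit 1 (ix x) = decide (0 = ix x) := by
        rw [show (1 : ℕ) = 2 ^ 0 from rfl, Nat.testBit_two_pow]
      have e1 : ∀ k, k < 24 → (x = pt k ↔ k = ix x) := by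
        intro k hk
        constructor
        · rintro rfl; rw [ix_pt hk]
        · intro e; rw [e, pt_ix]
      rw [e0, Bool.or_eq_true, Bool.or_eq_true, decide_eq_true_eq, decide_eq_true_eq, decide_eq_true_eq]
      simp only [List.mem_cons, List.not_mem_nil, or_false]
      rw [e1 0 (by norm_num), e1 i hi, e1 j hj]
    have hlt : (1 ||| ((1 <<< i) ||| (1 <<< j))) < 2 ^ 24 := by
      apply Nat.or_lt_two_pow (by norm_num)
      apply Nat.or_lt_two_pow
      · rw [Nat.one_shiftLeft]; exact Nat.pow_lt_pow_right (by norm_num) hi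
      · rw [Nat.one_shiftLeft]; exact Nat.pow_lt_pow_right (by norm_num) hj
    obtain ⟨m, hm, hme⟩ := hexM_complete (hQ.2.2 t ht u hu htu)
    have hsub : m &&& (1 ||| ((1 <<< i) ||| (1 <<< j))) = (1 ||| ((1 <<< i) ||| (1 <<< j))) := by
      apply st_inj (lt_of_le_of_lt Nat.and_le_right hlt) hlt
      rw [st_and, ← hme, ← hT]
      exact Finset.inter_eq_right.2 Finset.subset_union_left
    have hus : u = st (m ^^^ (1 ||| ((1 <<< i) ||| (1 <<< j)))) := by
      rw [st_xor, ← hme, ← hT]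
      ext x
      rw [Finset.mem_symmDiff, mem_union]
      constructor
      · intro hx
        exact Or.inl ⟨Or.inr hx, fun h => (Finset.disjoint_left.1 hdis) h hx⟩
      · rintro (⟨h1 | h1, h2⟩ | ⟨h1, h2⟩)
        · exact absurd h1 h2
        · exact h1
        · exact absurd (Or.inl h1) h2
    have h := complQ_ok
    unfold complQ at h
    rw [List.all_eq_true] at h
    have h := h i (List.mem_range.2 hi)
    rw [List.all_eq_true] at h
    have h := h j (List.mem_range.2 hj)
    rw [mem_st, ix_pt hi] at hid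
    rw [mem_st, ix_pt hj] at hjd
    rw [hid, hjd] at h
    simp only [Bool.or_eq_true, beq_iff_eq, Nat.ble_eq, Bool.not_true, Bool.false_eq_true, or_false, List.all_eq_true,
      Bool.not_eq_true', List.any_eq_true, Bool.and_eq_true, List.mem_range, List.contains_iff_mem] at h
    rcases h with (h | h | h) | h
    · exact absurd h hi0
    · omega
    · omega
    · rcases h m hm with h | ⟨e, he, e1, e2⟩
      · rw [beq_eq_false_iff_ne] at h
        exact absurd hsub h
      · refine ⟨e, he, ?_⟩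
        obtain ⟨R, _, hR⟩ := exists_unique dodU_mem (hQ.2.1 t ht).1 (hQ.2.1 u hu).1 hdis (hQ.2.2 t ht u hu htu)
        rw [hR Q ⟨hQ, ht, hu⟩]
        symm
        apply hR
        refine ⟨decQ_mem (tab_ok he), ?_, ?_⟩
        · rw [hT]; exact mem_fs.2 ⟨_, by rw [← e1]; simp [comps], rfl⟩
        · rw [hus]; exact mem_fs.2 ⟨_, e2, rfl⟩
  have hb : b ∈ t := by rw [← hbc]; simp
  have hc : c ∈ t := by rw [← hbc]; simp
  have hbd := (hQ.2.1 t ht).2 hb
  have hcd := (hQ.2.1 t ht).2 hc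
  simp only [List.nodup_cons, List.mem_cons, List.not_mem_nil, or_false, not_or, not_false_eq_true, List.nodup_nil, and_true] at hn
  have hb0 : ix b ≠ 0 := fun e => hn.1.1 (by rw [← pt_ix b, e])
  have hc0 : ix c ≠ 0 := fun e => hn.1.2 (by rw [← pt_ix c, e])
  have hne : ix b ≠ ix c := fun e => hn.2 (ix_inj e)
  rcases lt_or_gt_of_ne hne with hlt | hlt
  · exact key (ix b) (ix_lt b) (ix c) (ix_lt c) hlt hb0 (by rw [pt_ix]; exact hbd) (by rw [pt_ix]; exact hcd)
      (by rw [pt_ix, pt_ix]; exact hbc)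
  · exact key (ix c) (ix_lt c) (ix b) (ix_lt b) hlt hc0 (by rw [pt_ix]; exact hcd) (by rw [pt_ix]; exact hbd)
      (by rw [pt_ix, pt_ix, ← hbc]; ext x; simp; tauto)

noncomputable def quartE : Enumn (Finset (Finset GolayPt)) where
  X := quartets (st dodU)
  N := 220
  w := 96
  E := qTab
  dec := decQ
  ok := okQ
  surj := fun _ hy => qTab_surj hy
  mem := fun _ he => decQ_mem (tab_ok he)
  inj := by
    intro e he e' he' hee
    have h1 := decQ_inj (tab_ok he) (tab_ok he') hee
    have hs := (sorted_spec (n := 8) (by norm_num) qTab_ok).2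
    by_contra hne
    rcases Nat.lt_or_gt_of_ne hne with h2 | h2
    · have := hs e' he' e h2; omega
    · have := hs e he e' h2; omega

theorem ncard_std : (quartets (st dodU)).ncard = 220 := by
  have h := ncard_enum quartE (n := 8) (by show 220 ≤ 2 ^ 8; norm_num) (F := fun _ => True) (f := fun _ => true)
    (fun e _ => by simp)
  have e : {y | y ∈ quartE.X ∧ True} = quartets (st dodU) := by
    ext y; simp only [and_true, Set.mem_setOf_eq]; rfl
  rw [e] at h
  rw [h]
  decide +kernel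

theorem smul_quartets {g : Equiv.Perm GolayPt} (hg : g ∈ M24) : quartets (g • d) = (fun Q => g • Q) '' quartets d := by
  ext Q
  constructor
  · intro hQ
    refine ⟨g⁻¹ • Q, ?_, smul_inv_smul g Q⟩
    have := smul_quartet (M24.inv_mem hg) hQ
    rwa [inv_smul_smul] at this
  · rintro ⟨R, hR, rfl⟩
    exact smul_quartet hg hR

theorem ncard_quartets (hd : d ∈ dodecads) : (quartets d).ncard = 220 := by
  obtain ⟨g, hg, e⟩ := dodecads_transitive dodU_mem hd
  rw [← e, smul_quartets hg, Set.ncard_image_of_injective _ (MulAction.injective g), ncard_std]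

theorem trans_quartets (hd : d ∈ dodecads) (hd' : d' ∈ dodecads) {Q Q' : Finset (Finset GolayPt)} (hQ : Q ∈ quartets d)
    (hQ' : Q' ∈ quartets d') : ∃ g ∈ M24, g • d = d' ∧ g • Q = Q' := by
  have ne : ∀ {d : Finset GolayPt} {Q : Finset (Finset GolayPt)}, Q ∈ quartets d → ∃ t, t ∈ Q := by
    intro d Q hQ
    have : Q.Nonempty := by rw [← Finset.card_pos, hQ.1]; norm_num
    exact this
  obtain ⟨t, ht⟩ := ne hQ
  obtain ⟨t', ht'⟩ := ne hQ'
  obtain ⟨u, hu, htu⟩ := exists_other hQ t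
  obtain ⟨u', hu', htu'⟩ := exists_other hQ' t'
  obtain ⟨a, b, c, n1, rfl⟩ := exists_triple (hQ.2.1 t ht).1
  obtain ⟨a2, b2, c2, n2, rfl⟩ := exists_triple (hQ.2.1 u hu).1
  obtain ⟨a3, b3, c3, n3, rfl⟩ := exists_triple (hQ'.2.1 t' ht').1
  obtain ⟨a4, b4, c4, n4, rfl⟩ := exists_triple (hQ'.2.1 u' hu').1
  obtain ⟨g, hg, hgd, _, _, he⟩ := quartet_map hd hd' hQ hQ' n1 n2 n3 n4 ht hu htu ht' hu' htu'
  exact ⟨g, hg, hgd, he⟩

/-! ### orbits -/

def hQt : Subgroup (Equiv.Perm GolayPt) := M24 ⊓ MulAction.stabilizer (Equiv.Perm GolayPt) (st dodU) ⊓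
  MulAction.stabilizer (Equiv.Perm GolayPt) stdQ

def vQt : List ℕ := [12, 6, 8, 7, 5]

noncomputable def clsQt (y : Finset (Finset GolayPt)) : ℕ := vQt.idxOf (prof 0 stdQ y)

theorem stdQ_fs : stdQ = fs [7, 0x150, 0x11200, 0x42008] := by
  unfold stdQ fs
  ext x; simp

theorem dQt_ok : allB (descOKE 220 96 qTab sameQ 12 dQt) 0 8 = true := by decide +kernel

theorem dQt_gens : ∀ c ∈ dQt.gens, pres c = true ∧ act c dodU = dodU ∧
    [7, 0x150, 0x11200, 0x42008].all (fun t => [7, 0x150, 0x11200, 0x42008].contains (act c t)) = true := by decide +kernel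

theorem dQt_roots : ∀ k < dQt.roots.length, (lok (comps (dQt.roots.getD k 0)) = true) ∧
    vQt.idxOf ((([7, 0x150, 0x11200, 0x42008] ×ˢ comps (dQt.roots.getD k 0)).filter (fun p => pc (p.1 &&& p.2) == 0)).length) = k := by
  decide +kernel

theorem dQt_mem : ∀ c ∈ dQt.gens, pres c = true ∧ pm c ∈ hQt := by
  intro c hc
  obtain ⟨h1, h2, h3⟩ := dQt_gens c hc
  have hv := pres_valid h1
  refine ⟨h1, ⟨pm_mem_M24 h1, ?_⟩, ?_⟩
  · show pm c • st dodU = st dodU
    rw [pm_smul_st hv, h2]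
  · show pm c • stdQ = stdQ
    rw [List.all_eq_true] at h3
    apply Finset.eq_of_subset_of_card_le
    · intro t ht
      obtain ⟨s, hs, rfl⟩ := Finset.mem_smul_finset.1 ht
      rw [stdQ_fs] at hs ⊢
      obtain ⟨a, ha, rfl⟩ := mem_fs.1 hs
      rw [pm_smul_st hv]
      exact mem_fs.2 ⟨_, List.contains_iff_mem.1 (h3 a ha), rfl⟩
    · rw [Finset.card_smul_finset]

theorem orbQt : (∀ y ∈ quartets (st dodU), ∀ z ∈ quartets (st dodU), clsQt y = clsQt z → ∃ g ∈ hQt, g • y = z) ∧
    (∀ k, {y | y ∈ quartets (st dodU) ∧ clsQt y = k}.ncard = countB (fun e => Nat.blt e 220 && tabAt dQt.R 4 e == k) 0 8) ∧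
    ∀ y ∈ quartets (st dodU), clsQt y < 5 := by
  obtain ⟨r1, r2, r3, r4⟩ := enum_orbits quartE (n := 8) (same := sameQ) (pw := 12) (d := dQt) (by
    show 220 ≤ 2 ^ 8; norm_num) dQt_ok (fun c hc => (dQt_mem c hc).2)
    (fun c hc e he e' he' h => sameQ_spec (dQt_mem c hc).1 (tab_ok he) (tab_ok he') h) clsQt (by
      intro g hg y
      unfold clsQt
      have h1 : g • stdQ = stdQ := hg.2
      conv_lhs => rw [← h1, prof_smul]) (by
      intro k hk
      show vQt.idxOf (prof 0 stdQ (fs (comps (dQt.roots.getD k 0)))) = k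
      obtain ⟨h1, h2⟩ := dQt_roots k hk
      rw [stdQ_fs, prof_fs 0 (by decide) h1]
      exact h2)
  exact ⟨r3, r4, fun y hy => (r2 y hy).1⟩

theorem cntQt : countB (fun e => Nat.blt e 220 && tabAt dQt.R 4 e == 0) 0 8 = 1 ∧
    countB (fun e => Nat.blt e 220 && tabAt dQt.R 4 e == 1) 0 8 = 12 ∧
    countB (fun e => Nat.blt e 220 && tabAt dQt.R 4 e == 2) 0 8 = 27 ∧
    countB (fun e => Nat.blt e 220 && tabAt dQt.R 4 e == 3) 0 8 = 72 ∧
    countB (fun e => Nat.blt e 220 && tabAt dQt.R 4 e == 4) 0 8 = 108 := by decide +kernel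

/-- transported classes -/
noncomputable def clsG (Q y : Finset (Finset GolayPt)) : ℕ := vQt.idxOf (prof 0 Q y)

theorem clsG_smul (Q y : Finset (Finset GolayPt)) (g : Equiv.Perm GolayPt) : clsG (g • Q) (g • y) = clsG Q y := by
  unfold clsG; rw [prof_smul]

theorem orb_gen (hd : d ∈ dodecads) {Q : Finset (Finset GolayPt)} (hQ : Q ∈ quartets d) :
    (∀ y ∈ quartets d, ∀ z ∈ quartets d, clsG Q y = clsG Q z → ∃ g ∈ M24, g • d = d ∧ g • Q = Q ∧ g • y = z) ∧
    (∀ k, {y | y ∈ quartets d ∧ clsG Q y = k}.ncard = countB (fun e => Nat.blt e 220 && tabAt dQt.R 4 e == k) 0 8) ∧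
    ∀ y ∈ quartets d, clsG Q y < 5 := by
  obtain ⟨k, hk, hkd, hkQ⟩ := trans_quartets dodU_mem hd stdQ_mem hQ
  obtain ⟨r1, r2, r3⟩ := orbQt
  have back : ∀ y ∈ quartets d, k⁻¹ • y ∈ quartets (st dodU) := by
    intro y hy
    have := smul_quartet (M24.inv_mem hk) hy
    rwa [← hkd, inv_smul_smul] at this
  have hcl : ∀ y, clsQt (k⁻¹ • y) = clsG Q y := by
    intro y
    have := clsG_smul stdQ (k⁻¹ • y) k
    rw [smul_inv_smul, hkQ] at this
    exact this.symm
  refine ⟨?_, ?_, ?_⟩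
  · intro y hy z hz hyz
    obtain ⟨g, hg, he⟩ := r1 _ (back y hy) _ (back z hz) (by rw [hcl, hcl, hyz])
    refine ⟨k * g * k⁻¹, M24.mul_mem (M24.mul_mem hk hg.1.1) (M24.inv_mem hk), ?_, ?_, ?_⟩
    · rw [mul_smul, mul_smul, ← hkd, inv_smul_smul, show g • st dodU = st dodU from hg.1.2]
    · rw [mul_smul, mul_smul, ← hkQ, inv_smul_smul, show g • stdQ = stdQ from hg.2]
    · rw [mul_smul, mul_smul, he, smul_inv_smul]
  · intro n
    rw [← r2 n]
    have : {y | y ∈ quartets d ∧ clsG Q y = n} = (fun y => k • y) '' {y | y ∈ quartets (st dodU) ∧ clsQt y = n} := by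
      ext y
      constructor
      · rintro ⟨h1, h2⟩
        exact ⟨k⁻¹ • y, ⟨back y h1, by rw [hcl]; exact h2⟩, smul_inv_smul k y⟩
      · rintro ⟨z, ⟨h1, h2⟩, rfl⟩
        refine ⟨by rw [← hkd]; exact smul_quartet hk h1, ?_⟩
        rw [← hcl, inv_smul_smul]; exact h2
    rw [this, Set.ncard_image_of_injective _ (MulAction.injective k)]
  · intro y hy
    rw [← hcl]; exact r3 _ (back y hy)

end Cfsg.Agent.Lib.Quart
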