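import Cfsg.Agent.Lib.Quart.Orb
import Cfsg.Agent.Lib.Golay.FixCount
import Mathlib.LinearAlgebra.Matrix.GeneralLinearGroup.Card
import Mathlib.LinearAlgebra.Matrix.ToLin

/-!
Local structure in the stabiliser of a dodecad.
-/

set_option autoImplicit false

namespace Cfsg.Agent.Lib.Quart

open Cfsg Finset
open scoped Pointwise
open Cfsg.Agent.Lib.Golay

variable {d d' : Finset GolayPt}

/-- extension of lists -/
theorem extend_list {s : Finset GolayPt} {n : ℕ} (hn : n ≤ s.card) : ∀ (k : ℕ) (l : List GolayPt), l.Nodup →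
    (∀ x ∈ l, x ∈ s) → l.length + k = n → ∃ m, (l ++ m).Nodup ∧ (∀ x ∈ l ++ m, x ∈ s) ∧ (l ++ m).length = n := by
  intro k
  induction k with
  | zero => intro l h1 h2 h3; exact ⟨[], by simpa using h1, by simpa using h2, by simpa using h3⟩
  | succ k ih =>
    intro l h1 h2 h3
    have h4 : l.toFinset.card < s.card := by rw [List.toFinset_card_of_nodup h1]; omega
    obtain ⟨x, hx, hxl⟩ := Finset.exists_mem_notMem_of_card_lt_card h4
    rw [List.mem_toFinset] at hxl
    obtain ⟨m, e1, e2, e3⟩ := ih (l ++ [x]) (by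
      rw [List.nodup_append]
      refine ⟨h1, by simp, ?_⟩
      intro a ha b hb hab
      rw [List.mem_singleton] at hb
      subst hab; subst hb; exact hxl ha) (by
      intro y hy
      rw [List.mem_append, List.mem_singleton] at hy
      rcases hy with hy | rfl
      · exact h2 y hy
      · exact hx) (by rw [List.length_append, List.length_singleton]; omega)
    exact ⟨[x] ++ m, by rw [← List.append_assoc]; exact e1, by rw [← List.append_assoc]; exact e2,
      by rw [← List.append_assoc]; exact e3⟩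

theorem le5_map (hd : d ∈ dodecads) (hd' : d' ∈ dodecads) {l l' : List GolayPt} (hl : l.Nodup) (hl' : l'.Nodup)
    (h5 : l.length ≤ 5) (he : l.length = l'.length) (hm : ∀ x ∈ l, x ∈ d) (hm' : ∀ x ∈ l', x ∈ d') :
    ∃ g ∈ M24, g • d = d' ∧ l.map g = l' := by
  have c1 := (mem_dodecads.1 hd).2
  have c2 := (mem_dodecads.1 hd').2
  obtain ⟨m, a1, a2, a3⟩ := extend_list (s := d) (n := 5) (by omega) (5 - l.length) l hl hm (by omega)
  obtain ⟨m', b1, b2, b3⟩ := extend_list (s := d') (n := 5) (by omega) (5 - l'.length) l' hl' hm' (by omega)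
  obtain ⟨g, hg, hgd, hgl⟩ := five_map hd hd' a1 b1 a3 b3 a2 b2
  rw [List.map_append] at hgl
  exact ⟨g, hg, hgd, (List.append_inj hgl (by rw [List.length_map, he])).1⟩

/-! ### stabilisers of up to three points -/

theorem card_stabM (hd : d ∈ dodecads) : Nat.card ↥(MulAction.stabilizer M24 d) = 95040 := by
  rw [card_inf_stab M24 d, card_stab_dodecad hd]

/-- the subgroup fixing a list -/
def fixL (d : Finset GolayPt) (l : List GolayPt) : Subgroup ↥M24 where
  carrier := {g | (g : Equiv.Perm GolayPt) • d = d ∧ ∀ x ∈ l, (g : Equiv.Perm GolayPt) x = x}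
  mul_mem' := by
    rintro a b ⟨h1, h2⟩ ⟨h3, h4⟩
    refine ⟨?_, ?_⟩
    · show ((a : Equiv.Perm GolayPt) * b) • d = d
      rw [mul_smul, h3, h1]
    · intro x hx
      show (a : Equiv.Perm GolayPt) ((b : Equiv.Perm GolayPt) x) = x
      rw [h4 x hx, h2 x hx]
  one_mem' := ⟨one_smul _ _, fun x _ => rfl⟩
  inv_mem' := by
    rintro a ⟨h1, h2⟩
    refine ⟨?_, ?_⟩
    · show (a : Equiv.Perm GolayPt)⁻¹ • d = d
      rw [inv_smul_eq_iff, h1]
    · intro x hx
      show (a : Equiv.Perm GolayPt)⁻¹ x = x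
      rw [Equiv.Perm.inv_eq_iff_eq, h2 x hx]

theorem card_fixL (hd : d ∈ dodecads) : ∀ (l : List GolayPt), l.Nodup → (∀ x ∈ l, x ∈ d) → l.length ≤ 5 →
    Nat.card (fixL d l) * (12).descFactorial l.length = 95040 := by
  intro l
  induction l with
  | nil =>
    intro _ _ _
    have : fixL d [] = MulAction.stabilizer M24 d := by
      ext g
      constructor
      · intro h; exact h.1
      · intro h; exact ⟨h, by simp⟩
    rw [this, card_stabM hd]; rfl
  | cons a l ih =>
    intro hl hm h5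
    rw [List.nodup_cons] at hl
    have h1 := ih hl.2 (fun x hx => hm x (List.mem_cons_of_mem _ hx)) (by simp at h5; omega)
    have h2 := card_eq_orbit_mul (fixL d l) a
    have e1 : fixL d l ⊓ MulAction.stabilizer ↥M24 a = fixL d (a :: l) := by
      ext g
      constructor
      · rintro ⟨⟨h3, h4⟩, h5⟩
        refine ⟨h3, ?_⟩
        intro x hx
        rcases List.mem_cons.1 hx with rfl | hx
        · exact h5
        · exact h4 x hx
      · rintro ⟨h3, h4⟩
        exact ⟨⟨h3, fun x hx => h4 x (List.mem_cons_of_mem _ hx)⟩, h4 a List.mem_cons_self⟩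
    have e2 : MulAction.orbit (fixL d l) a = ((d \ l.toFinset : Finset GolayPt) : Set GolayPt) := by
      ext y
      rw [Finset.mem_coe, mem_sdiff, List.mem_toFinset]
      constructor
      · rintro ⟨g, rfl⟩
        have hgd := g.2.1
        have hgl := g.2.2
        refine ⟨?_, ?_⟩
        · have h6 := (smul_mem_smul_iff' (g : Equiv.Perm GolayPt) d a).2 (hm a List.mem_cons_self)
          rw [hgd] at h6
          exact h6
        · intro hy
          have h6 : (g : Equiv.Perm GolayPt) ((g : Equiv.Perm GolayPt) a) = (g : Equiv.Perm GolayPt) a := hgl _ hy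
          have h7 := (g : Equiv.Perm GolayPt).injective h6
          have h8 : (g : Equiv.Perm GolayPt) a ∈ l := hy
          rw [h7] at h8
          exact hl.1 h8
      · rintro ⟨hy1, hy2⟩
        obtain ⟨g, hg, hgd, hgl⟩ := le5_map hd hd (l := a :: l) (l' := y :: l) (List.nodup_cons.2 hl) (List.nodup_cons.2 ⟨hy2, hl.2⟩)
          h5 rfl hm (by
            intro x hx
            rcases List.mem_cons.1 hx with rfl | hx
            · exact hy1
            · exact hm x (List.mem_cons_of_mem _ hx))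
        rw [List.map_cons, List.cons.injEq] at hgl
        refine ⟨⟨⟨g, hg⟩, hgd, ?_⟩, hgl.1⟩
        intro x hx
        obtain ⟨i, hi, rfl⟩ := List.getElem_of_mem hx
        have h3 : (l.map g)[i]'(by simpa using hi) = l[i] := by simp only [hgl.2]
        rw [List.getElem_map] at h3
        exact h3
    have e3 : (MulAction.orbit (fixL d l) a).ncard = 12 - l.length := by
      rw [e2, Set.ncard_coe_finset, Finset.card_sdiff_of_subset (fun x hx => hm x (List.mem_cons_of_mem _ (List.mem_toFinset.1 hx))),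
        List.toFinset_card_of_nodup hl.2, (mem_dodecads.1 hd).2]
    rw [e1, e3] at h2
    rw [List.length_cons, Nat.descFactorial_succ, ← h1, h2]
    ring

def c72 : List (ℕ × ℕ) := [(5, 0x5ddd59a4e87d186b4483534b280820), (7, 0xa56f6510b28ada874d867a4e380820), (10, 0xa397638de88dcd2acd8d2c14448820),
  (11, 0x7cd47bb2b0b44662ba4da256820820), (14, 0x8aa6fa22f2a96093ac8db31c618820), (15, 0xb5e9598ce42b9a65a9098b1f090820),
  (17, 0x752cb3a4a455cd0acdac7ca2818820), (19, 0xbadd4290ec7d510b292d88e7230820), (20, 0x3a9f37216ca946d8dcc9b4a8480820),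
  (21, 0x89e65a496873d3055c66b32ad20820), (22, 0x9bceab92885c4692b9b2a9ad060820), (23, 0x2ccea5b1c9b448d7d506a42f218820)]

theorem c72_ok : ∀ c ∈ c72, pres c.2 = true ∧ act c.2 dodU = dodU ∧ img c.2 0 = 0 ∧ img c.2 1 = 1 ∧ img c.2 2 = 2 ∧ img c.2 5 = c.1 := by
  decide +kernel

theorem c72_all : ∀ i < 24, dodU.testBit i = false → ∃ c ∈ c72, c.1 = i := by decide +kernel

theorem pt_dodU : ∀ i < 5, pt i ∈ st dodU := by
  intro i hi
  rw [mem_st, ix_pt (by omega)]
  have : ∀ i < 5, dodU.testBit i = true := by decide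
  exact this i hi

theorem trans_compl (hd : d ∈ dodecads) {p q r : GolayPt} (hn : [p, q, r].Nodup) (hm : ∀ x ∈ [p, q, r], x ∈ d) {x y : GolayPt}
    (hx : x ∉ d) (hy : y ∉ d) : ∃ g ∈ M24, g • d = d ∧ g p = p ∧ g q = q ∧ g r = r ∧ g x = y := by
  obtain ⟨k, hk, hkd, hkl⟩ := le5_map dodU_mem hd (l := [pt 0, pt 1, pt 2]) (l' := [p, q, r]) std_lists.1.1 hn (by simp) rfl (by
    intro x hx
    simp only [List.mem_cons, List.not_mem_nil, or_false] at hx
    rcases hx with rfl | rfl | rfl
    · exact pt_dodU 0 (by norm_num)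
    · exact pt_dodU 1 (by norm_num)
    · exact pt_dodU 2 (by norm_num)) hm
  simp only [List.map_cons, List.map_nil, List.cons.injEq, and_true] at hkl
  obtain ⟨k1, k2, k3⟩ := hkl
  have key : ∀ z, z ∉ d → ∃ g ∈ M24, g • st dodU = st dodU ∧ g (pt 0) = pt 0 ∧ g (pt 1) = pt 1 ∧ g (pt 2) = pt 2 ∧ k (g (pt 5)) = z := by
    intro z hz
    have h1 : dodU.testBit (ix (k⁻¹ z)) = false := by
      by_contra hc
      rw [Bool.not_eq_false] at hc
      have h2 : k⁻¹ z ∈ st dodU := mem_st.2 hc
      apply hz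
      have h3 := (smul_mem_smul_iff' k (st dodU) (k⁻¹ z)).2 h2
      rw [hkd] at h3
      simpa using h3
    obtain ⟨c, hc, hci⟩ := c72_all _ (ix_lt _) h1
    obtain ⟨a1, a2, a3, a4, a5, a6⟩ := c72_ok c hc
    have hv := pres_valid a1
    refine ⟨pm c.2, pm_mem_M24 a1, by rw [pm_smul_st hv, a2], by rw [pm_pt hv (by norm_num), a3],
      by rw [pm_pt hv (by norm_num), a4], by rw [pm_pt hv (by norm_num), a5], ?_⟩
    rw [pm_pt hv (by norm_num), a6, hci, pt_ix]
    simp
  obtain ⟨g, hg, g1, g2, g3, g4, g5⟩ := key x hx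
  obtain ⟨h, hh, h1, h2, h3, h4, h5⟩ := key y hy
  have inv_fix : ∀ {f : Equiv.Perm GolayPt} {a b : GolayPt}, f a = b → f⁻¹ b = a := by
    intro f a b e; rw [← e]; simp
  refine ⟨k * h * (k * g)⁻¹, M24.mul_mem (M24.mul_mem hk hh) (M24.inv_mem (M24.mul_mem hk hg)), ?_, ?_, ?_, ?_, ?_⟩
  · rw [mul_smul, ← hkd]
    have : (k * g)⁻¹ • k • st dodU = st dodU := by rw [inv_smul_eq_iff, mul_smul, g1]
    rw [this, mul_smul, h1]
  · rw [Equiv.Perm.mul_apply, inv_fix (show (k * g) (pt 0) = p by rw [Equiv.Perm.mul_apply, g2, k1]), Equiv.Perm.mul_apply, h2, k1]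
  · rw [Equiv.Perm.mul_apply, inv_fix (show (k * g) (pt 1) = q by rw [Equiv.Perm.mul_apply, g3, k2]), Equiv.Perm.mul_apply, h3, k2]
  · rw [Equiv.Perm.mul_apply, inv_fix (show (k * g) (pt 2) = r by rw [Equiv.Perm.mul_apply, g4, k3]), Equiv.Perm.mul_apply, h4, k3]
  · rw [Equiv.Perm.mul_apply, inv_fix (show (k * g) (pt 5) = x by rw [Equiv.Perm.mul_apply, g5]), Equiv.Perm.mul_apply, h5]

/-! ### restriction to a set -/

/-- restriction of an action to an invariant set -/
noncomputable def restrHom {K : Type*} [Group K] (f : K →* Equiv.Perm GolayPt) (s : Finset GolayPt) (hs : ∀ g, f g • s = s) :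
    K →* Equiv.Perm {x // x ∈ s} where
  toFun g := (f g).subtypePerm (fun x => by
    conv_lhs => rw [← hs g]
    exact smul_mem_smul_iff' _ _ _)
  map_one' := by
    apply Equiv.ext; intro x; apply Subtype.ext
    show f 1 x = x
    rw [map_one]; rfl
  map_mul' g h := by
    apply Equiv.ext; intro x; apply Subtype.ext
    show f (g * h) x = f g (f h x)
    rw [map_mul]; rfl

theorem restrHom_apply {K : Type*} [Group K] (f : K →* Equiv.Perm GolayPt) (s : Finset GolayPt) (hs : ∀ g, f g • s = s) (g : K)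
    (x : {x // x ∈ s}) : ((restrHom f s hs g x : {x // x ∈ s}) : GolayPt) = f g x := rfl

/-! ### affine planes -/

abbrev V := Fin 2 → ZMod 3

theorem gl_of_add {G : Type*} [Group G] (f : G →* Equiv.Perm V) (hf : ∀ g u v, f g (u + v) = f g u + f g v) :
    ∃ F : G →* GL (Fin 2) (ZMod 3), ∀ g v, (F g : Matrix (Fin 2) (Fin 2) (ZMod 3)).mulVec v = f g v := by
  let Lm : G → (V →ₗ[ZMod 3] V) := fun g => (AddMonoidHom.mk' (f g) (hf g)).toZModLinearMap 3
  have hLm : ∀ g v, Lm g v = f g v := fun g v => rfl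
  let F0 : G →* Matrix (Fin 2) (Fin 2) (ZMod 3) :=
    { toFun := fun g => LinearMap.toMatrix' (Lm g)
      map_one' := by
        have : Lm 1 = LinearMap.id := by
          apply LinearMap.ext; intro v; rw [hLm, map_one]; rfl
        rw [this, LinearMap.toMatrix'_id]
      map_mul' := by
        intro g h
        have : Lm (g * h) = (Lm g).comp (Lm h) := by
          apply LinearMap.ext; intro v
          rw [LinearMap.comp_apply, hLm, hLm, hLm, map_mul]; rfl
        rw [this, LinearMap.toMatrix'_comp] }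
  refine ⟨F0.toHomUnits, fun g v => ?_⟩
  show (LinearMap.toMatrix' (Lm g)).mulVec v = f g v
  rw [LinearMap.toMatrix'_mulVec]
  exact hLm g v

def coT : List ℕ := [3, 6, 9, 4, 16, 13, 12, 18, 8]

def coN (i j : ZMod 3) : ℕ := coT.getD (3 * i.val + j.val) 0

theorem coN_ok : ∀ i j : ZMod 3, coN i j < 24 ∧ dodU.testBit (coN i j) = true ∧ coN i j ≠ 0 ∧ coN i j ≠ 1 ∧ coN i j ≠ 2 := by
  decide +kernel

theorem coN_inj : ∀ i j i' j' : ZMod 3, coN i j = coN i' j' → i = i' ∧ j = j' := by decide +kernel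

theorem coN_surj' : ∀ k : Fin 24, dodU.testBit k = true → k.val ≠ 0 → k.val ≠ 1 → k.val ≠ 2 → ∃ i : ZMod 3, ∃ j : ZMod 3, coN i j = k.val := by
  decide +kernel

theorem coN_surj (k : ℕ) (hk : k < 24) : dodU.testBit k = true → k ≠ 0 → k ≠ 1 → k ≠ 2 → ∃ i j : ZMod 3, coN i j = k :=
  coN_surj' ⟨k, hk⟩

theorem coN_hex : ∀ i j i' j' : ZMod 3, ¬ (i = i' ∧ j = j') →
    hexM.contains (((7 ||| (1 <<< coN i j)) ||| (1 <<< coN i' j')) ||| (1 <<< coN (-i - i') (-j - j'))) = true := by decide +kernel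

structure AffD (d : Finset GolayPt) (l : List GolayPt) (e : V → GolayPt) : Prop where
  inj : Function.Injective e
  mem : ∀ v, e v ∈ d ∧ e v ∉ l
  surj : ∀ x ∈ d, x ∉ l → ∃ v, e v = x
  hex : ∀ u v, u ≠ v → l.toFinset ∪ {e u, e v, e (-u - v)} ∈ hexadsOn d

theorem st_bit {m i : ℕ} (hi : i < 24) : st (m ||| (1 <<< i)) = insert (pt i) (st m) := by
  ext x
  rw [mem_st, Nat.testBit_or, Nat.one_shiftLeft, Nat.testBit_two_pow, Bool.or_eq_true, decide_eq_true_eq, mem_insert, mem_st]
  constructor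
  · rintro (h | h)
    · exact Or.inr h
    · exact Or.inl (by rw [h, pt_ix])
  · rintro (rfl | h)
    · exact Or.inr (by rw [ix_pt hi])
    · exact Or.inl h

theorem exists_aff (hd : d ∈ dodecads) {a b c p : GolayPt} (hn : [a, b, c, p].Nodup) (hm : ∀ x ∈ [a, b, c, p], x ∈ d) :
    ∃ e : V → GolayPt, AffD d [a, b, c] e ∧ e 0 = p := by
  obtain ⟨k, hk, hkd, hkl⟩ := le5_map dodU_mem hd (l := [pt 0, pt 1, pt 2, pt 3]) (l' := [a, b, c, p]) (by decide +kernel) hn (by simp) rfl (by
    intro x hx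
    simp only [List.mem_cons, List.not_mem_nil, or_false] at hx
    rcases hx with rfl | rfl | rfl | rfl
    · exact pt_dodU 0 (by norm_num)
    · exact pt_dodU 1 (by norm_num)
    · exact pt_dodU 2 (by norm_num)
    · exact pt_dodU 3 (by norm_num)) hm
  simp only [List.map_cons, List.map_nil, List.cons.injEq, and_true] at hkl
  obtain ⟨k1, k2, k3, k4⟩ := hkl
  refine ⟨fun v => k (pt (coN (v 0) (v 1))), ⟨?_, ?_, ?_, ?_⟩, ?_⟩
  · intro u v huv
    have h1 := pt_inj (coN_ok _ _).1 (coN_ok _ _).1 (k.injective huv)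
    obtain ⟨h2, h3⟩ := coN_inj _ _ _ _ h1
    funext i
    fin_cases i
    · exact h2
    · exact h3
  · intro v
    obtain ⟨h1, h2, h3, h4, h5⟩ := coN_ok (v 0) (v 1)
    refine ⟨?_, ?_⟩
    · rw [← hkd, smul_mem_smul_iff', mem_st, ix_pt h1]; exact h2
    · simp only [List.mem_cons, List.not_mem_nil, or_false, not_or]
      refine ⟨?_, ?_, ?_⟩
      · rw [← k1]; intro e; exact h3 (pt_inj h1 (by norm_num) (k.injective e))
      · rw [← k2]; intro e; exact h4 (pt_inj h1 (by norm_num) (k.injective e))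
      · rw [← k3]; intro e; exact h5 (pt_inj h1 (by norm_num) (k.injective e))
  · intro x hx hxl
    simp only [List.mem_cons, List.not_mem_nil, or_false, not_or] at hxl
    have e0 : k (pt (ix (k⁻¹ x))) = x := by rw [pt_ix]; simp
    have h1 : dodU.testBit (ix (k⁻¹ x)) = true := by
      rw [← mem_st, ← smul_mem_smul_iff' k, hkd]
      simpa using hx
    have hne : ∀ i, k (pt i) ≠ x → ix (k⁻¹ x) ≠ i := by
      intro i h e
      apply h
      rw [← e, e0]
    obtain ⟨i, j, hij⟩ := coN_surj _ (ix_lt _) h1 (hne 0 (by rw [k1]; exact Ne.symm hxl.1))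
      (hne 1 (by rw [k2]; exact Ne.symm hxl.2.1)) (hne 2 (by rw [k3]; exact Ne.symm hxl.2.2))
    refine ⟨![i, j], ?_⟩
    show k (pt (coN i j)) = x
    rw [hij, e0]
  · intro u v huv
    have h1 : ¬ (u 0 = v 0 ∧ u 1 = v 1) := by
      rintro ⟨h1, h2⟩
      apply huv
      funext i
      fin_cases i
      · exact h1
      · exact h2
    have h2 := hexM_sound (List.contains_iff_mem.1 (coN_hex _ _ _ _ h1))
    have h3 := smul_hexad hk h2
    rw [hkd, st_bit (coN_ok _ _).1, st_bit (coN_ok _ _).1, st_bit (coN_ok _ _).1] at h3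
    have e : k • insert (pt (coN (-u 0 - v 0) (-u 1 - v 1))) (insert (pt (coN (v 0) (v 1))) (insert (pt (coN (u 0) (u 1))) (st 7))) =
        [a, b, c].toFinset ∪ {k (pt (coN (u 0) (u 1))), k (pt (coN (v 0) (v 1))), k (pt (coN ((-u - v) 0) ((-u - v) 1)))} := by
      have e7 : k • st 7 = [a, b, c].toFinset := by
        rw [← std_lists.1.2, smul_toFinset]
        simp only [List.map_cons, List.map_nil, k1, k2, k3]
      rw [Finset.smul_finset_insert, Finset.smul_finset_insert, Finset.smul_finset_insert, e7]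
      ext x
      simp only [mem_insert, mem_union, List.mem_toFinset, mem_singleton]
      show (x = k (pt (coN (-u 0 - v 0) (-u 1 - v 1))) ∨ x = k (pt (coN (v 0) (v 1))) ∨ x = k (pt (coN (u 0) (u 1))) ∨ _) ↔
        (_ ∨ x = k (pt (coN (u 0) (u 1))) ∨ x = k (pt (coN (v 0) (v 1))) ∨ x = k (pt (coN (-u 0 - v 0) (-u 1 - v 1))))
      tauto
    rw [e] at h3
    exact h3
  · exact k4

theorem v_three (u : V) : -u - u = u := by
  funext i
  have : ∀ x : ZMod 3, -x - x = x := by decide
  exact this (u i)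

theorem AffD.act (hd : d ∈ dodecads) {l : List GolayPt} (hl : l.Nodup) (hl3 : l.length = 3) {e : V → GolayPt} (h : AffD d l e)
    {g : Equiv.Perm GolayPt} (hg : g ∈ M24) (hgd : g • d = d) (hgl : g • l.toFinset = l.toFinset) {θ : V → V}
    (hθ : ∀ v, g (e v) = e (θ v)) (u v : V) : θ (-u - v) = -θ u - θ v := by
  by_cases huv : u = v
  · subst huv; rw [v_three, v_three]
  have hinj : ∀ u v, θ u = θ v → u = v := by
    intro u v e1
    apply h.inj
    apply g.injective
    rw [hθ, hθ, e1]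
  have h1 := smul_hexad hg (h.hex u v huv)
  rw [hgd, Finset.smul_finset_union, hgl] at h1
  have e1 : g • ({e u, e v, e (-u - v)} : Finset GolayPt) = {e (θ u), e (θ v), e (θ (-u - v))} := by
    rw [Finset.smul_finset_insert, Finset.smul_finset_insert, Finset.smul_finset_singleton, ← hθ, ← hθ, ← hθ]; rfl
  rw [e1] at h1
  have huv' : θ u ≠ θ v := fun e => huv (hinj u v e)
  have h2 := h.hex (θ u) (θ v) huv'
  have h3 := hexad_eq hd h1 h2 (by
    have hsub : l.toFinset ∪ {e (θ u), e (θ v)} ⊆ (l.toFinset ∪ {e (θ u), e (θ v), e (θ (-u - v))}) ∩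
        (l.toFinset ∪ {e (θ u), e (θ v), e (-θ u - θ v)}) := by
      intro x hx
      simp only [mem_union, mem_insert, mem_singleton, mem_inter] at hx ⊢
      tauto
    have hc := Finset.card_le_card hsub
    rw [Finset.card_union_of_disjoint, List.toFinset_card_of_nodup hl, hl3, Finset.card_pair (fun e' => huv' (h.inj e'))] at hc
    · exact hc
    · rw [Finset.disjoint_left]
      intro x hx hx'
      rw [List.mem_toFinset] at hx
      rw [mem_insert, mem_singleton] at hx'
      rcases hx' with rfl | rfl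
      · exact (h.mem _).2 hx
      · exact (h.mem _).2 hx)
  have h4 : e (θ (-u - v)) ∈ l.toFinset ∪ {e (θ u), e (θ v), e (-θ u - θ v)} := by
    rw [← h3]; simp
  simp only [mem_union, mem_insert, mem_singleton, List.mem_toFinset] at h4
  rcases h4 with h4 | h4 | h4 | h4
  · exact absurd h4 (h.mem _).2
  · exfalso
    have := hinj _ _ (h.inj h4)
    apply huv
    have e2 : v = -u - (-u - v) := by abel
    rw [this, v_three] at e2
    exact e2.symm
  · exfalso
    have := hinj _ _ (h.inj h4)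
    apply huv
    have e2 : u = -v - (-u - v) := by abel
    rw [this, v_three] at e2
    exact e2
  · exact h.inj h4

end Cfsg.Agent.Lib.Quart
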