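import Cfsg.Agent.Lib.Quart.Struct

/-!
Linear parts; the quartet group, pairs in the twelve-point action, involution centralisers.
-/

set_option autoImplicit false

namespace Cfsg.Agent.Lib.Quart

open Cfsg Finset
open scoped Pointwise
open Cfsg.Agent.Lib.Golay

variable {d d' : Finset GolayPt}

theorem v_sum3 (u : V) : u + u + u = 0 := by
  funext i
  have : ∀ x : ZMod 3, x + x + x = 0 := by decide
  exact this (u i)

theorem star_add {θ : V → V} (h : ∀ u v, θ (-u - v) = -θ u - θ v) (u v : V) : θ (u + v) = θ u + θ v - θ 0 := by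
  have h1 : ∀ v, θ (-v) = -θ 0 - θ v := by
    intro v
    have := h 0 v
    rwa [neg_zero, zero_sub] at this
  have h2 := h (-u) (-v)
  rw [neg_neg, sub_neg_eq_add, h1 u, h1 v] at h2
  rw [h2]
  have h3 := v_sum3 (θ 0)
  calc -(-θ 0 - θ u) - (-θ 0 - θ v) = θ u + θ v - θ 0 + (θ 0 + θ 0 + θ 0) := by abel
    _ = θ u + θ v - θ 0 := by rw [h3, add_zero]

theorem aff_lin (hd : d ∈ dodecads) {l : List GolayPt} (hl : l.Nodup) (hl3 : l.length = 3) {e : V → GolayPt} (h : AffD d l e)
    {K : Type*} [Group K] (f : K →* Equiv.Perm GolayPt)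
    (hf : ∀ g, f g ∈ M24 ∧ f g • d = d ∧ f g • l.toFinset = l.toFinset) :
    ∃ (Θ : K →* Equiv.Perm V) (F : K →* GL (Fin 2) (ZMod 3)), (∀ g v, f g (e v) = e (Θ g v)) ∧
      ∀ g v, (F g : Matrix (Fin 2) (Fin 2) (ZMod 3)).mulVec v = Θ g v - Θ g 0 := by
  have hs : ∀ g, f g • (d \ l.toFinset) = d \ l.toFinset := by
    intro g
    rw [Finset.smul_finset_sdiff, (hf g).2.1, (hf g).2.2]
  let E : V ≃ {x // x ∈ d \ l.toFinset} := Equiv.ofBijective (fun v => ⟨e v, by
    rw [mem_sdiff, List.mem_toFinset]; exact h.mem v⟩) ⟨fun u v huv => h.inj (congrArg Subtype.val huv), by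
      rintro ⟨x, hx⟩
      rw [mem_sdiff, List.mem_toFinset] at hx
      obtain ⟨v, hv⟩ := h.surj x hx.1 hx.2
      exact ⟨v, Subtype.ext hv⟩⟩
  have hE : ∀ v, (E v : GolayPt) = e v := fun v => rfl
  let Θ : K →* Equiv.Perm V := (E.symm.permCongrHom).toMonoidHom.comp (restrHom f _ hs)
  have hΘ : ∀ g v, f g (e v) = e (Θ g v) := by
    intro g v
    rw [← hE (Θ g v)]
    show f g (e v) = ((E (E.symm (restrHom f _ hs g (E v))) : {x // x ∈ d \ l.toFinset}) : GolayPt)
    rw [Equiv.apply_symm_apply, restrHom_apply]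
    rfl
  have hact : ∀ g u v, Θ g (-u - v) = -Θ g u - Θ g v := fun g u v =>
    h.act hd hl hl3 (hf g).1 (hf g).2.1 (hf g).2.2 (hΘ g) u v
  let L : K →* Equiv.Perm V :=
    { toFun := fun g => (Θ g).trans (Equiv.subRight (Θ g 0))
      map_one' := by
        apply Equiv.ext; intro v
        show Θ 1 v - Θ 1 0 = v
        rw [map_one]
        show v - 0 = v
        rw [sub_zero]
      map_mul' := by
        intro g k
        apply Equiv.ext; intro v
        show Θ (g * k) v - Θ (g * k) 0 = Θ g (Θ k v - Θ k 0) - Θ g 0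
        rw [map_mul]
        show Θ g (Θ k v) - Θ g (Θ k 0) = Θ g (Θ k v - Θ k 0) - Θ g 0
        have h1 := star_add (hact g) (Θ k v - Θ k 0) (Θ k 0)
        rw [sub_add_cancel] at h1
        rw [h1]; abel }
  have hL : ∀ g v, L g v = Θ g v - Θ g 0 := fun g v => rfl
  obtain ⟨F, hF⟩ := gl_of_add L (by
    intro g u v
    rw [hL, hL, hL, star_add (hact g)]; abel)
  exact ⟨Θ, F, hΘ, fun g v => by rw [hF, hL]⟩

theorem aff_faithful (hd : d ∈ dodecads) {l : List GolayPt} {e : V → GolayPt} (h : AffD d l e) {g g' : Equiv.Perm GolayPt}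
    (hg : g ∈ M24 ∧ g • d = d) (hg' : g' ∈ M24 ∧ g' • d = d) (he : ∀ v, g (e v) = g' (e v)) : g = g' := by
  have h1 : g⁻¹ * g' = 1 := by
    apply eq_one_of_five hd (M24.mul_mem (M24.inv_mem hg.1) hg'.1) (by rw [mul_smul, hg'.2, inv_smul_eq_iff, hg.2])
      (l := [0, ![1, 0], ![2, 0], ![0, 1], ![0, 2]].map e) (List.Nodup.map h.inj (by decide)) rfl
    · intro x hx
      obtain ⟨v, _, rfl⟩ := List.mem_map.1 hx
      exact (h.mem v).1
    · intro x hx
      obtain ⟨v, _, rfl⟩ := List.mem_map.1 hx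
      rw [Equiv.Perm.mul_apply, ← he, Equiv.Perm.inv_eq_iff_eq]
  exact (inv_mul_eq_one.1 h1)

theorem card_gl23 : Nat.card (GL (Fin 2) (ZMod 3)) = 48 := by
  have h := Matrix.card_GL_field (𝔽 := ZMod 3) 2
  rw [h]
  simp [Fin.prod_univ_two, ZMod.card]

/-! ### the quartet group -/

def triP (d : Finset GolayPt) (Q : Finset (Finset GolayPt)) (x : GolayPt) : Prop :=
  x ∉ d ∧ ∃ t ∈ Q, ∃ u ∈ Q, t ≠ u ∧ ∃ o ∈ octads, t ∪ u ⊆ o ∧ x ∈ o

theorem triP_smul {Q : Finset (Finset GolayPt)} {x : GolayPt} {g : Equiv.Perm GolayPt} (hg : g ∈ M24) (h : triP d Q x) :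
    triP (g • d) (g • Q) (g x) := by
  obtain ⟨h1, t, ht, u, hu, htu, o, ho, hs, hx⟩ := h
  refine ⟨by rw [smul_mem_smul_iff']; exact h1, g • t, Finset.smul_mem_smul_finset ht, g • u, Finset.smul_mem_smul_finset hu,
    fun e => htu (by rwa [smul_left_cancel_iff] at e), g • o, smul_mem_octads hg ho, ?_, by rw [smul_mem_smul_iff']; exact hx⟩
  rw [← Finset.smul_finset_union]; exact Finset.smul_finset_subset_smul_finset hs

def q4 : List ℕ := [7, 0x150, 0x11200, 0x42008]

theorem q4_data : (q4.all (fun a => q4.all (fun b => a == b || [343, 519, 15, 848, 344, 520].any (fun c =>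
    pc (comb c) == 8 && (comb c &&& dodU == (a ||| b) && (comb c ||| (dodU ||| 0x304000) == (dodU ||| 0x304000)))))) &&
    (List.range 24).all (fun i => !(Nat.testBit 0x304000 i) || (!(dodU.testBit i) && q4.any (fun a => q4.any (fun b => (!(a == b)) &&
    [343, 519, 15, 848, 344, 520].any (fun c => pc (comb c) == 8 && (comb c &&& dodU == (a ||| b) && (comb c).testBit i))))))) = true := by
  decide +kernel

theorem triP_std (x : GolayPt) : triP (st dodU) stdQ x ↔ x ∈ st 0x304000 := by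
  have hd := q4_data
  rw [Bool.and_eq_true, List.all_eq_true, List.all_eq_true] at hd
  obtain ⟨hd1, hd2⟩ := hd
  have hq : ∀ t, t ∈ stdQ ↔ ∃ a ∈ q4, t = st a := fun t => mem_stdQ
  constructor
  · rintro ⟨h1, t, ht, u, hu, htu, o, ho, hs, hx⟩
    obtain ⟨a, ha, rfl⟩ := (hq t).1 ht
    obtain ⟨b, hb, rfl⟩ := (hq u).1 hu
    have h2 := hd1 a ha
    rw [List.all_eq_true] at h2
    have h3 := h2 b hb
    rw [Bool.or_eq_true, beq_iff_eq] at h3
    rcases h3 with h3 | h3
    · exact absurd (by rw [h3]) htu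
    rw [List.any_eq_true] at h3
    obtain ⟨c, _, h4⟩ := h3
    rw [Bool.and_eq_true, Bool.and_eq_true, beq_iff_eq, beq_iff_eq, beq_iff_eq] at h4
    obtain ⟨h5, h6, h7⟩ := h4
    have ho' : st (comb c) ∈ octads := mem_octads.2 ⟨isWord_comb c, by rw [card_st]; exact h5⟩
    have hhex := (stdQ_mem.2.2 _ ht _ hu htu).1
    have hsub : st a ∪ st b ⊆ st (comb c) := by
      rw [← st_or, ← h6, st_and]; exact Finset.inter_subset_left
    have heq : o = st (comb c) := by
      obtain ⟨s, hs1, hs2⟩ := Finset.exists_subset_card_eq (show 5 ≤ (st a ∪ st b).card by omega)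
      obtain ⟨w, _, hu'⟩ := steiner.2 s hs2
      rw [hu' o ⟨ho, hs1.trans hs⟩, hu' _ ⟨ho', hs1.trans hsub⟩]
    rw [heq] at hx
    have h8 : x ∈ st (dodU ||| 0x304000) := by
      rw [← h7, st_or]; exact mem_union_left _ hx
    rw [st_or, mem_union] at h8
    exact h8.resolve_left h1
  · intro hx
    rw [mem_st] at hx
    have h1 := hd2 (ix x) (List.mem_range.2 (ix_lt x))
    rw [Bool.or_eq_true, Bool.not_eq_true', Bool.and_eq_true, Bool.not_eq_true'] at h1
    rcases h1 with h1 | ⟨h1, h2⟩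
    · rw [hx] at h1; exact absurd h1 (by simp)
    rw [List.any_eq_true] at h2
    obtain ⟨a, ha, h2⟩ := h2
    rw [List.any_eq_true] at h2
    obtain ⟨b, hb, h2⟩ := h2
    rw [Bool.and_eq_true, Bool.not_eq_true', beq_eq_false_iff_ne, List.any_eq_true] at h2
    obtain ⟨hab, c, _, h4⟩ := h2
    rw [Bool.and_eq_true, Bool.and_eq_true, beq_iff_eq, beq_iff_eq] at h4
    obtain ⟨h5, h6, h7⟩ := h4
    have hlt : ∀ c ∈ q4, c < 2 ^ 24 := by decide
    refine ⟨by rw [mem_st, h1]; simp, st a, (hq _).2 ⟨a, ha, rfl⟩, st b, (hq _).2 ⟨b, hb, rfl⟩,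
      fun e => hab (st_inj (hlt a ha) (hlt b hb) e), st (comb c), mem_octads.2 ⟨isWord_comb c, by rw [card_st]; exact h5⟩, ?_, ?_⟩
    · rw [← st_or, ← h6, st_and]; exact Finset.inter_subset_left
    · rw [mem_st]; exact h7

theorem exists_tri (hd : d ∈ dodecads) {Q : Finset (Finset GolayPt)} (hQ : Q ∈ quartets d) :
    ∃ A : Finset GolayPt, A.card = 3 ∧ A ⊆ dᶜ ∧ ∀ g ∈ M24, g • d = d → g • Q = Q → g • A = A := by
  obtain ⟨k, hk, hkd, hkQ⟩ := trans_quartets dodU_mem hd stdQ_mem hQ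
  have hA : ∀ x, x ∈ k • st 0x304000 ↔ triP d Q x := by
    intro x
    have e : x = k (k⁻¹ x) := by simp
    constructor
    · intro hx
      rw [e, smul_mem_smul_iff', ← triP_std] at hx
      have := triP_smul hk hx
      rw [hkd, hkQ] at this
      rw [e]; exact this
    · intro hx
      have := triP_smul (M24.inv_mem hk) hx
      rw [← hkd, ← hkQ, inv_smul_smul, inv_smul_smul, triP_std, ← smul_mem_smul_iff' k] at this
      rw [e]; exact this
  refine ⟨k • st 0x304000, ?_, ?_, ?_⟩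
  · rw [Finset.card_smul_finset, card_st]; decide
  · intro x hx
    rw [mem_compl]
    exact ((hA x).1 hx).1
  · intro g hg hgd hgQ
    apply Finset.eq_of_subset_of_card_le
    · intro x hx
      have e : x = g (g⁻¹ x) := by simp
      rw [e, smul_mem_smul_iff', hA] at hx
      have := triP_smul hg hx
      rw [hgd, hgQ] at this
      rw [hA, e]; exact this
    · rw [Finset.card_smul_finset g]

theorem card_quartet_group (hd : d ∈ dodecads) {Q : Finset (Finset GolayPt)} (hQ : Q ∈ quartets d) :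
    Nat.card ↥(MulAction.stabilizer M24 d ⊓ MulAction.stabilizer M24 Q) = 432 := by
  have h := card_eq_orbit_mul (MulAction.stabilizer M24 d) Q
  have e : MulAction.orbit (MulAction.stabilizer M24 d) Q = quartets d := by
    ext y
    constructor
    · rintro ⟨g, rfl⟩
      have := smul_quartet (g : ↥M24).2 hQ
      rw [show ((g : ↥M24) : Equiv.Perm GolayPt) • d = d from g.2] at this
      exact this
    · intro hy
      obtain ⟨g, hg, h1, h2⟩ := trans_quartets hd hd hQ hy
      exact ⟨⟨⟨g, hg⟩, h1⟩, h2⟩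
  rw [card_stabM hd, e, ncard_quartets hd] at h
  omega

theorem exists_ninth {s A : Finset GolayPt} (h : A.card < s.card) : ∃ p ∈ s, p ∉ A := Finset.exists_mem_notMem_of_card_lt_card h

theorem quartet_structure (hd : d ∈ dodecads) {Q : Finset (Finset GolayPt)} (hQ : Q ∈ quartets d) :
    ∃ (N : Subgroup ↥(MulAction.stabilizer M24 d ⊓ MulAction.stabilizer M24 Q)) (_ : N.Normal), Nat.card N = 9 ∧
      Nonempty (↥(MulAction.stabilizer M24 d ⊓ MulAction.stabilizer M24 Q) ⧸ N ≃* GL (Fin 2) (ZMod 3)) := by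
  obtain ⟨A, hA3, hAd, hAg⟩ := exists_tri hd hQ
  have hd' := compl_dodecad hd
  obtain ⟨a, b, c, hn, rfl⟩ := exists_triple hA3
  obtain ⟨p, hp, hpA⟩ := exists_ninth (s := dᶜ) (A := [a, b, c].toFinset) (by rw [hA3, (mem_dodecads.1 hd').2]; norm_num)
  obtain ⟨e, he, _⟩ := exists_aff hd' (a := a) (b := b) (c := c) (p := p) (by
    have : [a, b, c, p] = [a, b, c] ++ [p] := rfl
    rw [this, List.nodup_append]
    refine ⟨hn, by simp, ?_⟩
    intro x hx y hy hxy
    rw [List.mem_singleton] at hy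
    subst hxy; subst hy
    exact hpA (List.mem_toFinset.2 hx)) (by
    intro x hx
    have : x ∈ [a, b, c] ++ [p] := hx
    rw [List.mem_append, List.mem_singleton] at this
    rcases this with h | rfl
    · exact hAd (List.mem_toFinset.2 h)
    · exact hp)
  set H := MulAction.stabilizer M24 d ⊓ MulAction.stabilizer M24 Q with hH
  let f : H →* Equiv.Perm GolayPt := (Subgroup.subtype M24).comp H.subtype
  have hf : ∀ g, f g ∈ M24 ∧ f g • dᶜ = dᶜ ∧ f g • [a, b, c].toFinset = [a, b, c].toFinset := by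
    intro g
    have h1 : f g • d = d := g.2.1
    refine ⟨(g : ↥M24).2, ?_, hAg _ (g : ↥M24).2 h1 g.2.2⟩
    rw [smul_compl', h1]
  obtain ⟨Θ, F, hΘ, hF⟩ := aff_lin hd' hn rfl he f hf
  have hfinj : Function.Injective f := fun x y hxy => Subtype.ext (Subtype.ext hxy)
  have hker : Nat.card F.ker ≤ 9 := by
    have h9 : Nat.card V = 9 := by
      rw [Nat.card_eq_fintype_card]; rfl
    rw [← h9]
    apply Nat.card_le_card_of_injective (fun g : F.ker => Θ g 0)
    intro g g' hgg
    have h1 : ∀ (g : F.ker) v, Θ g v = v + Θ g 0 := by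
      intro g v
      have h2 := hF g v
      rw [show F (g : H) = 1 from g.2, Units.val_one, Matrix.one_mulVec] at h2
      conv_rhs => rw [h2]
      abel
    apply Subtype.ext
    apply hfinj
    apply aff_faithful hd' he ⟨(hf _).1, (hf _).2.1⟩ ⟨(hf _).1, (hf _).2.1⟩
    intro v
    rw [hΘ, hΘ, h1 g, h1 g']
    have hgg' : Θ (g : H) 0 = Θ (g' : H) 0 := hgg
    rw [hgg']
  have hfin : Finite (GL (Fin 2) (ZMod 3)) := inferInstance
  have hq : Nat.card (H ⧸ F.ker) = Nat.card F.range := Nat.card_congr (QuotientGroup.quotientKerEquivRange F).toEquiv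
  have hr : Nat.card F.range ≤ 48 := by
    rw [← card_gl23]; exact Subgroup.card_le_card_group _
  have hcard := Subgroup.card_eq_card_quotient_mul_card_subgroup F.ker
  rw [card_quartet_group hd hQ, hq] at hcard
  have hk9 : Nat.card F.ker = 9 := by
    by_contra hne
    have h1 : Nat.card F.ker ≤ 8 := by omega
    have h2 : Nat.card F.range * Nat.card F.ker ≤ 48 * 8 := Nat.mul_le_mul hr h1
    omega
  have hr48 : Nat.card F.range = 48 := by rw [hk9] at hcard; omega
  have hsurj : Function.Surjective F := by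
    rw [← MonoidHom.range_eq_top]
    apply Subgroup.eq_top_of_card_eq
    rw [hr48, card_gl23]
  exact ⟨F.ker, inferInstance, hk9, ⟨QuotientGroup.quotientKerEquivOfSurjective F hsurj⟩⟩

theorem quartet_trans (hd : d ∈ dodecads) {Q : Finset (Finset GolayPt)} (hQ : Q ∈ quartets d) {p q : GolayPt} (hp : p ∈ d) (hq : q ∈ d) :
    ∃ g ∈ M24, g • d = d ∧ g • Q = Q ∧ g p = q := by
  obtain ⟨t, ht, hpt⟩ := quartet_cover hd hQ hp
  obtain ⟨t', ht', hqt⟩ := quartet_cover hd hQ hq
  obtain ⟨u, hu, htu⟩ := exists_other hQ t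
  obtain ⟨u', hu', htu'⟩ := exists_other hQ t'
  obtain ⟨b, c, n1, e1⟩ := exists_triple_of (hQ.2.1 t ht).1 hpt
  obtain ⟨b', c', n2, e2⟩ := exists_triple_of (hQ.2.1 t' ht').1 hqt
  obtain ⟨a3, b3, c3, n3, rfl⟩ := exists_triple (hQ.2.1 u hu).1
  obtain ⟨a4, b4, c4, n4, rfl⟩ := exists_triple (hQ.2.1 u' hu').1
  subst e1; subst e2
  obtain ⟨g, hg, hgd, h1, _, he⟩ := quartet_map hd hd hQ hQ n1 n3 n2 n4 ht hu htu ht' hu' htu'
  rw [List.map_cons, List.cons.injEq] at h1
  exact ⟨g, hg, hgd, he, h1.1⟩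

end Cfsg.Agent.Lib.Quart
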