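import Cfsg.Agent.Lib.Quart.Struct2

/-!
Pairs in the twelve-point action and involution centralisers in the smallest Mathieu group.
-/

set_option autoImplicit false

namespace Cfsg.Agent.Lib.Quart

open Cfsg Finset
open scoped Pointwise
open Cfsg.Agent.Lib.Golay

variable {d d' : Finset GolayPt}

theorem pair_data : ((List.range 24).all (fun j => dodU.testBit j || (List.range 24).all (fun k => dodU.testBit k || (j == k ||
    hexC.any (fun c => pc (comb c) == 8 && ((comb c ||| dodU == dodU ||| (1 <<< j) ||| (1 <<< k)) && ((comb c).testBit j && ((comb c).testBit k &&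
      (comb c).testBit 0)))))))) = true := by decide +kernel

theorem exists_oct6 (hd : d ∈ dodecads) {p q q' : GolayPt} (hp : p ∈ d) (hq : q ∉ d) (hq' : q' ∉ d) (hqq : q ≠ q') :
    ∃ o ∈ octads, o \ d = {q, q'} ∧ p ∈ o := by
  obtain ⟨k, hk, hkd, hkl⟩ := le5_map dodU_mem hd (l := [pt 0]) (l' := [p]) (by simp) (by simp) (by simp) rfl (by
    intro x hx
    rw [List.mem_singleton] at hx
    subst hx; exact pt_dodU 0 (by norm_num)) (by
    intro x hx
    rw [List.mem_singleton] at hx
    subst hx; exact hp)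
  rw [List.map_singleton, List.cons.injEq] at hkl
  have hk0 := hkl.1
  have hout : ∀ z, z ∉ d → dodU.testBit (ix (k⁻¹ z)) = false := by
    intro z hz
    by_contra hc
    rw [Bool.not_eq_false] at hc
    apply hz
    have h3 := (smul_mem_smul_iff' k (st dodU) (k⁻¹ z)).2 (mem_st.2 hc)
    rw [hkd] at h3
    simpa using h3
  have hkk : ∀ z, k (pt (ix (k⁻¹ z))) = z := by intro z; rw [pt_ix]; simp
  have hne : ix (k⁻¹ q) ≠ ix (k⁻¹ q') := by
    intro e
    have := ix_inj e
    exact hqq (k⁻¹.injective this)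
  have h := pair_data
  rw [List.all_eq_true] at h
  have h := h _ (List.mem_range.2 (ix_lt (k⁻¹ q)))
  rw [hout q hq, Bool.false_or, List.all_eq_true] at h
  have h := h _ (List.mem_range.2 (ix_lt (k⁻¹ q')))
  rw [hout q' hq', Bool.false_or, Bool.or_eq_true, beq_iff_eq] at h
  rcases h with h | h
  · exact absurd h hne
  rw [List.any_eq_true] at h
  obtain ⟨c, _, h⟩ := h
  simp only [Bool.and_eq_true, beq_iff_eq] at h
  obtain ⟨h8, h1, h2, h3, h4⟩ := h
  have hco : st (comb c) ∪ st dodU = insert (pt (ix (k⁻¹ q'))) (insert (pt (ix (k⁻¹ q))) (st dodU)) := by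
    rw [← st_or, h1, st_bit (ix_lt _), st_bit (ix_lt _)]
  have hst : st (comb c) \ st dodU = {k⁻¹ q, k⁻¹ q'} := by
    ext x
    rw [mem_sdiff, mem_insert, mem_singleton]
    constructor
    · rintro ⟨a1, a2⟩
      have a3 : x ∈ st (comb c) ∪ st dodU := mem_union_left _ a1
      rw [hco, mem_insert, mem_insert, pt_ix, pt_ix] at a3
      rcases a3 with a3 | a3 | a3
      · exact Or.inr a3
      · exact Or.inl a3
      · exact absurd a3 a2
    · rintro (rfl | rfl)
      · exact ⟨mem_st.2 h2, by rw [mem_st, hout q hq]; simp⟩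
      · exact ⟨mem_st.2 h3, by rw [mem_st, hout q' hq']; simp⟩
  refine ⟨k • st (comb c), smul_mem_octads hk (mem_octads.2 ⟨isWord_comb c, by rw [card_st]; exact h8⟩), ?_, ?_⟩
  · rw [← hkd, ← Finset.smul_finset_sdiff, hst, Finset.smul_finset_insert, Finset.smul_finset_singleton]
    show ({k (k⁻¹ q), k (k⁻¹ q')} : Finset GolayPt) = {q, q'}
    simp
  · rw [← hk0, smul_mem_smul_iff', mem_st, ix_pt (by norm_num)]; exact h4

theorem oct_eq_of_five {o o' : Finset GolayPt} (ho : o ∈ octads) (ho' : o' ∈ octads) (h5 : 5 ≤ (o ∩ o').card) : o = o' := by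
  obtain ⟨s, hs1, hs2⟩ := Finset.exists_subset_card_eq h5
  obtain ⟨w, _, hu⟩ := steiner.2 s hs2
  rw [hu o ⟨ho, hs1.trans Finset.inter_subset_left⟩, hu o' ⟨ho', hs1.trans Finset.inter_subset_right⟩]

theorem oct6_unique (hd : d ∈ dodecads) {p q q' : GolayPt} (hp : p ∈ d) (hqq : q ≠ q')
    {o o' : Finset GolayPt} (ho : o ∈ octads) (ho' : o' ∈ octads) (h1 : o \ d = {q, q'}) (h2 : o' \ d = {q, q'}) (hpo : p ∈ o)
    (hpo' : p ∈ o') : o = o' := by
  have hq : q ∈ o \ d := by rw [h1]; simp
  have hq' : q' ∈ o \ d := by rw [h1]; simp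
  have hq2 : q ∈ o' \ d := by rw [h2]; simp
  have hq2' : q' ∈ o' \ d := by rw [h2]; simp
  have h3 : 3 ≤ (o ∩ o').card := by
    have hsub : ({p, q, q'} : Finset GolayPt) ⊆ o ∩ o' := by
      intro x hx
      simp only [mem_insert, mem_singleton] at hx
      rw [mem_inter]
      rcases hx with rfl | rfl | rfl
      · exact ⟨hpo, hpo'⟩
      · exact ⟨(mem_sdiff.1 hq).1, (mem_sdiff.1 hq2).1⟩
      · exact ⟨(mem_sdiff.1 hq').1, (mem_sdiff.1 hq2').1⟩
    have hc := Finset.card_le_card hsub
    rwa [Finset.card_eq_three.2 ⟨p, q, q', fun e => (mem_sdiff.1 hq).2 (e ▸ hp), fun e => (mem_sdiff.1 hq').2 (e ▸ hp), hqq, rfl⟩] at hc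
  have hw := (mem_octads.1 ho).1.symmDiff (mem_octads.1 ho').1
  have hc := card_symmDiff o o'
  rw [(mem_octads.1 ho).2, (mem_octads.1 ho').2] at hc
  have hcases := hw.card
  rcases hcases with h | h | h | h | h
  · exact oct_eq_of_five ho ho' (by omega)
  · exfalso
    have hO : symmDiff o o' ∈ octads := mem_octads.2 ⟨hw, h⟩
    have hsub : symmDiff o o' ∩ d = symmDiff o o' := by
      rw [Finset.inter_eq_left]
      intro x hx
      by_contra hxd
      rw [Finset.mem_symmDiff] at hx
      rcases hx with ⟨a, b⟩ | ⟨a, b⟩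
      · have : x ∈ o' \ d := by rw [h2, ← h1]; exact mem_sdiff.2 ⟨a, hxd⟩
        exact b (mem_sdiff.1 this).1
      · have : x ∈ o \ d := by rw [h1, ← h2]; exact mem_sdiff.2 ⟨a, hxd⟩
        exact b (mem_sdiff.1 this).1
    have := octad_dodecad_inter hO hd
    rw [hsub, h] at this
    omega
  · omega
  · omega
  · omega

theorem pair_sym5 (hd : d ∈ dodecads) {p q q' : GolayPt} (hp : p ∈ d) (hq : q ∉ d) (hq' : q' ∉ d) (hqq : q ≠ q') :
    Nonempty (↥(MulAction.stabilizer M24 d ⊓ MulAction.stabilizer M24 p ⊓ MulAction.stabilizer M24 ({q, q'} : Finset GolayPt)) ≃*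
      Equiv.Perm (Fin 5)) := by
  obtain ⟨o, ho, ho2, hpo⟩ := exists_oct6 hd hp hq hq' hqq
  set K := MulAction.stabilizer M24 d ⊓ MulAction.stabilizer M24 p ⊓ MulAction.stabilizer M24 ({q, q'} : Finset GolayPt) with hK
  let f : K →* Equiv.Perm GolayPt := (Subgroup.subtype M24).comp K.subtype
  have hfM : ∀ g, f g ∈ M24 := fun g => (g : ↥M24).2
  have hfd : ∀ g, f g • d = d := fun g => g.2.1.1
  have hfp : ∀ g, f g p = p := fun g => g.2.1.2
  have hfq : ∀ g, f g • ({q, q'} : Finset GolayPt) = {q, q'} := fun g => g.2.2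
  have hfo : ∀ g, f g • o = o := by
    intro g
    apply oct6_unique hd hp hqq (smul_mem_octads (hfM g) ho) ho _ ho2 _ hpo
    · conv_lhs => rw [← hfd g]
      rw [← Finset.smul_finset_sdiff, ho2, hfq]
    · have := (smul_mem_smul_iff' (f g) o p).2 hpo
      rwa [hfp] at this
  have h8 := (mem_octads.1 ho).2
  have h2c : (o \ d).card = 2 := by rw [ho2, Finset.card_pair hqq]
  have h6 : (o ∩ d).card = 6 := by
    have := Finset.card_sdiff_add_card_inter o d
    omega
  have hhex : o ∩ d ∈ hexadsOn d := ⟨h6, o, ho, rfl⟩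
  have hpod : p ∈ o ∩ d := mem_inter.2 ⟨hpo, hp⟩
  set s := (o ∩ d).erase p with hs
  have hs5 : s.card = 5 := by rw [hs, Finset.card_erase_of_mem hpod, h6]
  have hsd : s ⊆ d := (Finset.erase_subset _ _).trans Finset.inter_subset_right
  have hfs : ∀ g, f g • s = s := by
    intro g
    have e1 : f g • (o ∩ d) = o ∩ d := by rw [Finset.smul_finset_inter, hfo, hfd]
    ext x
    obtain ⟨y, rfl⟩ := (f g).surjective x
    rw [smul_mem_smul_iff', hs, Finset.mem_erase, Finset.mem_erase]
    have h3 : f g y ∈ o ∩ d ↔ y ∈ o ∩ d := by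
      conv_lhs => rw [← e1]
      exact smul_mem_smul_iff' _ _ _
    have h4 : f g y ≠ p ↔ y ≠ p := by
      constructor
      · intro h e; apply h; rw [e, hfp]
      · intro h e; apply h
        apply (f g).injective
        rw [e, hfp]
    rw [h3, h4]
  have hfinj : Function.Injective f := fun x y hxy => Subtype.ext (Subtype.ext hxy)
  let R := restrHom f s hfs
  have hnd : s.toList.Nodup := Finset.nodup_toList s
  have hlen : s.toList.length = 5 := by rw [Finset.length_toList, hs5]
  have hRinj : Function.Injective R := by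
    rw [injective_iff_map_eq_one]
    intro g hg
    apply hfinj
    rw [map_one]
    apply eq_one_of_five hd (hfM g) (hfd g) hnd hlen
    · intro x hx; exact hsd (Finset.mem_toList.1 hx)
    · intro x hx
      have h1 := restrHom_apply f s hfs g ⟨x, Finset.mem_toList.1 hx⟩
      have h2 : R g ⟨x, Finset.mem_toList.1 hx⟩ = ⟨x, Finset.mem_toList.1 hx⟩ := by rw [hg]; rfl
      rw [← h1]
      exact congrArg Subtype.val h2
  have hRsurj : Function.Surjective R := by
    intro σ
    have hal : (s.attach.toList.map (fun x : {x // x ∈ s} => x.1)).Nodup :=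
      (Finset.nodup_toList _).map Subtype.val_injective
    have hal' : (s.attach.toList.map (fun x : {x // x ∈ s} => (σ x).1)).Nodup :=
      (Finset.nodup_toList _).map (Subtype.val_injective.comp σ.injective)
    obtain ⟨g, hg, hgd, hgl⟩ := five_map1 hd hal hal' (by rw [List.length_map, Finset.length_toList, Finset.card_attach, hs5])
      (by rw [List.length_map, Finset.length_toList, Finset.card_attach, hs5])
      (by
        intro x hx
        obtain ⟨y, _, rfl⟩ := List.mem_map.1 hx
        exact hsd y.2) (by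
        intro x hx
        obtain ⟨y, _, rfl⟩ := List.mem_map.1 hx
        exact hsd (σ y).2)
    rw [List.map_map, List.map_inj_left] at hgl
    have hgσ : ∀ x : {x // x ∈ s}, g x = σ x := fun x => hgl x (Finset.mem_toList.2 (Finset.mem_attach s x))
    have hgs : g • s = s := by
      apply Finset.eq_of_subset_of_card_le
      · intro x hx
        obtain ⟨y, hy, rfl⟩ := Finset.mem_smul_finset.1 hx
        have : g y = σ ⟨y, hy⟩ := hgσ ⟨y, hy⟩
        show g y ∈ s
        rw [this]; exact (σ ⟨y, hy⟩).2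
      · rw [Finset.card_smul_finset]
    have hgh : g • (o ∩ d) = o ∩ d := by
      apply hexad_eq hd _ hhex
      · rw [← hs5]
        apply Finset.card_le_card
        intro x hx
        rw [mem_inter]
        refine ⟨?_, Finset.mem_of_mem_erase hx⟩
        rw [← hgs] at hx
        exact Finset.smul_finset_subset_smul_finset (Finset.erase_subset _ _) hx
      · have := smul_hexad hg hhex
        rwa [hgd] at this
    have hgp : g p = p := by
      have h1 : g p ∈ o ∩ d := by
        rw [← hgh]; exact (smul_mem_smul_iff' _ _ _).2 hpod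
      by_contra hne
      have h2 : g p ∈ s := by rw [hs, Finset.mem_erase]; exact ⟨hne, h1⟩
      rw [← hgs, smul_mem_smul_iff', hs, Finset.mem_erase] at h2
      exact h2.1 rfl
    have hgo : g • o = o := by
      apply oct_eq_of_five (smul_mem_octads hg ho) ho
      have : o ∩ d ⊆ g • o ∩ o := by
        intro x hx
        rw [mem_inter]
        refine ⟨?_, (mem_inter.1 hx).1⟩
        rw [← hgh] at hx
        exact Finset.smul_finset_subset_smul_finset Finset.inter_subset_left hx
      have := Finset.card_le_card this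
      omega
    have hgq : g • ({q, q'} : Finset GolayPt) = {q, q'} := by
      rw [← ho2, Finset.smul_finset_sdiff, hgo, hgd]
    refine ⟨⟨⟨g, hg⟩, ⟨hgd, hgp⟩, hgq⟩, ?_⟩
    apply Equiv.ext; intro x; apply Subtype.ext
    rw [restrHom_apply]
    exact hgσ x
  exact ⟨(MulEquiv.ofBijective R ⟨hRinj, hRsurj⟩).trans (Finset.equivFinOfCardEq hs5).permCongrHom⟩

end Cfsg.Agent.Lib.Quart
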