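import Cfsg.Agent.Lib.Quart.Struct3

/-!
Involution centralisers in the smallest Mathieu group.
-/

set_option autoImplicit false

namespace Cfsg.Agent.Lib.Quart

open Cfsg Finset
open scoped Pointwise
open Cfsg.Agent.Lib.Golay

variable {d d' : Finset GolayPt}

theorem inv_fix_octad {g : Equiv.Perm GolayPt} (hg : g ∈ M24) (h2 : g * g = 1) (h1 : g ≠ 1) {p : GolayPt} (hp : g p = p) :
    (Finset.univ.filter fun x => g x = x) ∈ octads := by
  obtain ⟨k, hk, e | e⟩ := inv_class hg h2 h1
  · have h3 := fix_cI1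
    rw [← e, fixset_conj] at h3
    have := smul_mem_octads (M24.inv_mem hk) h3
    rwa [inv_smul_smul] at this
  · exfalso
    have h4 := nfix_conj k g
    rw [e, nfix_reps.2.1] at h4
    have h5 : p ∈ (Finset.univ.filter fun x => g x = x) := by simp [hp]
    unfold nfix at h4
    rw [Finset.card_eq_zero.1 h4.symm] at h5
    simp at h5

theorem filter_inter_le (hd : d ∈ dodecads) {g : Equiv.Perm GolayPt} (hg : g ∈ M24) (hgd : g • d = d) (h1 : g ≠ 1) :
    ((Finset.univ.filter fun x => g x = x) ∩ d).card ≤ 4 := by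
  by_contra hc
  push Not at hc
  obtain ⟨s, hs1, hs2⟩ := Finset.exists_subset_card_eq (show 5 ≤ ((Finset.univ.filter fun x => g x = x) ∩ d).card by omega)
  apply h1
  apply eq_one_of_five hd hg hgd (Finset.nodup_toList s) (by rw [Finset.length_toList, hs2])
  · intro x hx; exact (mem_inter.1 (hs1 (Finset.mem_toList.1 hx))).2
  · intro x hx
    have := (mem_inter.1 (hs1 (Finset.mem_toList.1 hx))).1
    simpa using this

/-- an involution of the point stabiliser fixes exactly four points of the dodecad -/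
theorem inv_four (hd : d ∈ dodecads) {g : Equiv.Perm GolayPt} (hg : g ∈ M24) (hgd : g • d = d) (h2 : g * g = 1) (h1 : g ≠ 1)
    {p : GolayPt} (hp : g p = p) : ((Finset.univ.filter fun x => g x = x) ∩ d).card = 4 := by
  have ho := inv_fix_octad hg h2 h1 hp
  have h3 := filter_inter_le hd hg hgd h1
  have h4 := filter_inter_le (compl_dodecad hd) hg (by rw [smul_compl', hgd]) h1
  have h5 : ((Finset.univ.filter fun x => g x = x) ∩ d).card + ((Finset.univ.filter fun x => g x = x) ∩ dᶜ).card = 8 := by
    rw [← (mem_octads.1 ho).2, ← Finset.card_union_of_disjoint]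
    · congr 1
      rw [← Finset.inter_union_distrib_left, Finset.union_compl, Finset.inter_univ]
    · rw [Finset.disjoint_left]
      intro x hx hx'
      rw [mem_inter, mem_compl] at hx'
      exact hx'.2 (mem_inter.1 hx).2
  omega

theorem m11_order (hd : d ∈ dodecads) {p : GolayPt} (hp : p ∈ d) :
    Nat.card ↥(MulAction.stabilizer M24 d ⊓ MulAction.stabilizer M24 p) = 7920 := by
  have h := card_fixL hd [p] (by simp) (by simpa using hp) (by simp)
  have e : MulAction.stabilizer M24 d ⊓ MulAction.stabilizer M24 p = fixL d [p] := by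
    ext g
    constructor
    · rintro ⟨h1, h2⟩
      refine ⟨h1, ?_⟩
      intro x hx
      rw [List.mem_singleton] at hx
      subst hx; exact h2
    · rintro ⟨h1, h2⟩
      exact ⟨h1, h2 p (by simp)⟩
  rw [e]
  have : (12).descFactorial [p].length = 12 := rfl
  rw [this] at h
  omega

/-- the setwise stabiliser of a triple in the point stabiliser has order 48 -/
theorem card_triple_stab (hd : d ∈ dodecads) {p : GolayPt} (hp : p ∈ d) {A : Finset GolayPt} (hA : A ⊆ d) (hpA : p ∉ A)
    (hA3 : A.card = 3) : Nat.card ↥(MulAction.stabilizer M24 d ⊓ MulAction.stabilizer M24 p ⊓ MulAction.stabilizer M24 A) = 48 := by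
  have h := card_eq_orbit_mul (MulAction.stabilizer M24 d ⊓ MulAction.stabilizer M24 p) A
  have e : MulAction.orbit ↥(MulAction.stabilizer M24 d ⊓ MulAction.stabilizer M24 p) A =
      ((d.erase p).powersetCard 3 : Finset (Finset GolayPt)) := by
    ext B
    rw [Finset.mem_coe, Finset.mem_powersetCard]
    constructor
    · rintro ⟨g, rfl⟩
      have hgd : ((g : ↥M24) : Equiv.Perm GolayPt) • d = d := g.2.1
      have hgp : ((g : ↥M24) : Equiv.Perm GolayPt) p = p := g.2.2
      refine ⟨?_, ?_⟩
      · intro x hx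
        have hx' : x ∈ ((g : ↥M24) : Equiv.Perm GolayPt) • A := hx
        obtain ⟨y, hy, rfl⟩ := Finset.mem_smul_finset.1 hx'
        rw [Finset.mem_erase]
        refine ⟨?_, ?_⟩
        · intro e
          have e' : ((g : ↥M24) : Equiv.Perm GolayPt) y = p := e
          exact hpA (((g : ↥M24) : Equiv.Perm GolayPt).injective (e'.trans hgp.symm) ▸ hy)
        · have := (smul_mem_smul_iff' ((g : ↥M24) : Equiv.Perm GolayPt) d y).2 (hA hy)
          rw [hgd] at this
          exact this
      · show (((g : ↥M24) : Equiv.Perm GolayPt) • A).card = 3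
        rw [Finset.card_smul_finset, hA3]
    · rintro ⟨hB, hB3⟩
      obtain ⟨a, b, c, n1, rfl⟩ := exists_triple hA3
      obtain ⟨a', b', c', n2, rfl⟩ := exists_triple hB3
      have hsplit : ∀ {l : List GolayPt}, l.Nodup → p ∉ l.toFinset → (p :: l).Nodup := by
        intro l hl hp
        exact List.nodup_cons.2 ⟨fun h => hp (List.mem_toFinset.2 h), hl⟩
      obtain ⟨g, hg, hgd, hgl⟩ := le5_map hd hd (l := p :: [a, b, c]) (l' := p :: [a', b', c'])
        (hsplit n1 hpA) (hsplit n2 (fun h => (Finset.mem_erase.1 (hB h)).1 rfl)) (by simp) (by simp) (by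
        intro x hx
        rcases List.mem_cons.1 hx with rfl | hx
        · exact hp
        · exact hA (List.mem_toFinset.2 hx)) (by
        intro x hx
        rcases List.mem_cons.1 hx with rfl | hx
        · exact hp
        · exact (Finset.mem_erase.1 (hB (List.mem_toFinset.2 hx))).2)
      rw [List.map_cons, List.cons.injEq] at hgl
      refine ⟨⟨⟨g, hg⟩, hgd, hgl.1⟩, ?_⟩
      show g • [a, b, c].toFinset = [a', b', c'].toFinset
      rw [smul_toFinset, hgl.2]
  rw [m11_order hd hp, e, Set.ncard_coe_finset, Finset.card_powersetCard, Finset.card_erase_of_mem hp, (mem_dodecads.1 hd).2] at h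
  have : Nat.choose (12 - 1) 3 = 165 := by decide
  rw [this] at h
  omega

theorem centralizer_gl23 (hd : d ∈ dodecads) {p : GolayPt} (hp : p ∈ d) (M : Subgroup ↥M24)
    (hM : M = MulAction.stabilizer M24 d ⊓ MulAction.stabilizer M24 p) (x : M) (hx : orderOf x = 2) :
    Nonempty (↥(Subgroup.centralizer ({x} : Set M)) ≃* GL (Fin 2) (ZMod 3)) := by
  have hmm : ∀ g : M, (g : ↥M24) ∈ MulAction.stabilizer M24 d ⊓ MulAction.stabilizer M24 p := fun g => hM ▸ g.2
  let f : M →* Equiv.Perm GolayPt := (Subgroup.subtype M24).comp M.subtype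
  have hfinj : Function.Injective f := fun x y hxy => Subtype.ext (Subtype.ext hxy)
  have hfM : ∀ g, f g ∈ M24 := fun g => (g : ↥M24).2
  have hfd : ∀ g, f g • d = d := fun g => (hmm g).1
  have hfp : ∀ g, f g p = p := fun g => (hmm g).2
  have hx2 := orderOf_eq_prime_iff.1 hx
  have x2 : f x * f x = 1 := by rw [← map_mul, ← sq, hx2.1, map_one]
  have x1 : f x ≠ 1 := fun e => hx2.2 (hfinj (by rw [e, map_one]))
  have h4 := inv_four hd (hfM x) (hfd x) x2 x1 (hfp x)
  set Fx := (Finset.univ.filter fun y => f x y = y) ∩ d with hFx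
  have hmemF : ∀ y, y ∈ Fx ↔ f x y = y ∧ y ∈ d := by intro y; rw [hFx, mem_inter, mem_filter]; simp
  have hpF : p ∈ Fx := (hmemF p).2 ⟨hfp x, hp⟩
  set A := Fx.erase p with hA
  have hA3 : A.card = 3 := by rw [hA, Finset.card_erase_of_mem hpF, h4]
  have hAd : A ⊆ d := (Finset.erase_subset _ _).trans Finset.inter_subset_right
  have hpA : p ∉ A := Finset.notMem_erase p Fx
  set S := M ⊓ MulAction.stabilizer M24 A with hS
  have hS48 : Nat.card S = 48 := by
    have h := card_triple_stab hd hp hAd hpA hA3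
    rw [← hM] at h
    exact h
  have hSm : ∀ g : S, (g : ↥M24) ∈ MulAction.stabilizer M24 d ⊓ MulAction.stabilizer M24 p := fun g => hM ▸ g.2.1
  obtain ⟨a, b, c, hn, habc⟩ := exists_triple hA3
  obtain ⟨e, he, he0⟩ := exists_aff hd (a := a) (b := b) (c := c) (p := p) (by
    have : [a, b, c, p] = [a, b, c] ++ [p] := rfl
    rw [this, List.nodup_append]
    refine ⟨hn, by simp, ?_⟩
    intro z hz y hy hzy
    rw [List.mem_singleton] at hy
    apply hpA
    rw [← habc, ← hy, ← hzy]; exact List.mem_toFinset.2 hz) (by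
    intro z hz
    have : z ∈ [a, b, c] ++ [p] := hz
    rw [List.mem_append, List.mem_singleton] at this
    rcases this with h | h
    · apply hAd; rw [← habc]; exact List.mem_toFinset.2 h
    · rw [h]; exact hp)
  let fS : S →* Equiv.Perm GolayPt := (Subgroup.subtype M24).comp S.subtype
  have hfSinj : Function.Injective fS := fun x y hxy => Subtype.ext (Subtype.ext hxy)
  have hfS : ∀ g, fS g ∈ M24 ∧ fS g • d = d ∧ fS g • [a, b, c].toFinset = [a, b, c].toFinset := by
    intro g
    refine ⟨(g : ↥M24).2, (hSm g).1, ?_⟩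
    rw [habc]; exact g.2.2
  obtain ⟨Θ, F, hΘ, hF⟩ := aff_lin hd hn rfl he fS hfS
  have hΘ0 : ∀ g, Θ g 0 = 0 := by
    intro g
    apply he.inj
    rw [← hΘ, he0]
    exact (hSm g).2
  have hF' : ∀ g v, (F g : Matrix (Fin 2) (Fin 2) (ZMod 3)).mulVec v = Θ g v := by
    intro g v; rw [hF, hΘ0, sub_zero]
  have hFinj : Function.Injective F := by
    rw [injective_iff_map_eq_one]
    intro g hg
    apply hfSinj
    rw [map_one]
    apply aff_faithful hd he ⟨(hfS g).1, (hfS g).2.1⟩ ⟨M24.one_mem, one_smul _ _⟩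
    intro v
    rw [hΘ, ← hF', hg, Units.val_one, Matrix.one_mulVec]; rfl
  have hFbij : Function.Bijective F := by
    rw [Nat.bijective_iff_injective_and_card]
    exact ⟨hFinj, by rw [hS48, card_gl23]⟩
  -- centralising elements preserve the triple
  have hcomm : ∀ g : M, g * x = x * g → f g • A = A := by
    intro g hgx
    have hc : ∀ y, f g (f x y) = f x (f g y) := by
      intro y
      have : f g * f x = f x * f g := by rw [← map_mul, ← map_mul, hgx]
      exact congrArg (fun h : Equiv.Perm GolayPt => h y) this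
    apply Finset.eq_of_subset_of_card_le
    · intro y hy
      obtain ⟨z, hz, rfl⟩ := Finset.mem_smul_finset.1 hy
      rw [hA, Finset.mem_erase, hmemF] at hz
      obtain ⟨hz1, hz2, hz3⟩ := hz
      show f g z ∈ A
      rw [hA, Finset.mem_erase, hmemF]
      refine ⟨?_, ?_, ?_⟩
      · intro e'; apply hz1; apply (f g).injective; rw [e', hfp]
      · rw [← hc, hz2]
      · have := (smul_mem_smul_iff' (f g) d z).2 hz3
        rwa [hfd] at this
    · rw [Finset.card_smul_finset]
  have hxS : (x : ↥M24) ∈ S := ⟨x.2, hcomm x rfl⟩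
  have hxneg : ∀ v, Θ ⟨x, hxS⟩ v = -v := by
    intro v
    set X := F ⟨x, hxS⟩ with hX
    have hXX : ∀ v, Θ ⟨x, hxS⟩ (Θ ⟨x, hxS⟩ v) = v := by
      intro v
      apply he.inj
      rw [← hΘ, ← hΘ]
      exact congrArg (fun h : Equiv.Perm GolayPt => h (e v)) x2
    have hfix : ∀ u, Θ ⟨x, hxS⟩ u = u → u = 0 := by
      intro u hu
      by_contra hne
      have h5 : e u ∈ Fx := by
        rw [hmemF]
        refine ⟨?_, (he.mem u).1⟩
        have := hΘ ⟨x, hxS⟩ u
        rw [hu] at this
        exact this
      have h6 : e u ∈ A := by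
        rw [hA, Finset.mem_erase]
        refine ⟨?_, h5⟩
        rw [← he0]
        intro e'; exact hne (he.inj e')
      apply (he.mem u).2
      rw [← habc] at h6
      exact List.mem_toFinset.1 h6
    have h7 := hfix (v + Θ ⟨x, hxS⟩ v) (by
      rw [← hF', Matrix.mulVec_add, hF', hF', hXX, add_comm])
    rw [add_comm] at h7
    exact eq_neg_of_add_eq_zero_left h7
  have hScomm : ∀ g : S, (g : ↥M24) * (x : ↥M24) = (x : ↥M24) * (g : ↥M24) := by
    intro g
    have : g * ⟨x, hxS⟩ = ⟨x, hxS⟩ * g := by
      apply hFinj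
      rw [map_mul, map_mul]
      apply Units.ext
      apply Matrix.mulVec_injective
      funext v
      rw [Units.val_mul, Units.val_mul, ← Matrix.mulVec_mulVec, ← Matrix.mulVec_mulVec, hF', hF', hF', hF', hxneg, hxneg,
        ← hF', ← hF', Matrix.mulVec_neg]
    exact congrArg (fun y : S => (y : ↥M24)) this
  -- the centraliser is the triple stabiliser
  let C := Subgroup.centralizer ({x} : Set M)
  have hC : ∀ g : M, g ∈ C ↔ g * x = x * g := by
    intro g
    rw [Subgroup.mem_centralizer_singleton_iff]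
  let φ : C →* S :=
    { toFun := fun g => ⟨((g : M) : ↥M24), ⟨(g : M).2, hcomm g ((hC g).1 g.2)⟩⟩
      map_one' := rfl
      map_mul' := fun _ _ => rfl }
  have hφ : Function.Bijective φ := by
    constructor
    · intro g h hgh
      apply Subtype.ext; apply Subtype.ext
      exact congrArg (fun y : S => (y : ↥M24)) hgh
    · intro g
      refine ⟨⟨⟨(g : ↥M24), g.2.1⟩, (hC _).2 ?_⟩, rfl⟩
      exact Subtype.ext (hScomm g)
  exact ⟨(MulEquiv.ofBijective φ hφ).trans (MulEquiv.ofBijective F hFbij)⟩

end Cfsg.Agent.Lib.Quart
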